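import Cfsg.Agent.Lib.Helper6.StSL.Defs

/-! StSL farm, piece A1a: conjugation of root elements by `w_ij(u)` (third index involved) -/

set_option autoImplicit false

namespace Cfsg.Agent.Lib.Helper6.StSL

open Matrix
open scoped commutatorElement

universe u

variable {n : ℕ} {K : Type*} [Field K] {Γ : Type*} [Group Γ]

section A
variable (S : StSys n K Γ)

theorem x_zero {i j : Fin n} (h : i ≠ j) : S.x i j 0 = 1 := by
  have h1 := S.add i j h 0 0
  rw [add_zero] at h1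
  exact mul_eq_left.1 h1

theorem x_inv {i j : Fin n} (h : i ≠ j) (t : K) : (S.x i j t)⁻¹ = S.x i j (-t) := by
  apply inv_eq_of_mul_eq_one_right
  rw [S.add i j h, add_neg_cancel, x_zero S h]

namespace A1a

theorem c0 {i j k l : Fin n} (hij : i ≠ j) (hkl : k ≠ l) (hjk : j ≠ k) (hil : i ≠ l) (t u : K) :
    S.x i j t * S.x k l u * (S.x i j t)⁻¹ = S.x k l u := by
  rw [S.comm i j k l hij hkl hjk hil, mul_inv_cancel_right]

theorem c1 {i j l : Fin n} (hij : i ≠ j) (hjl : j ≠ l) (hil : i ≠ l) (t u : K) :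
    S.x i j t * S.x j l u * (S.x i j t)⁻¹ = S.x i l (t * u) * S.x j l u := by
  rw [← S.mulc i j l hij hjl hil t u, inv_mul_cancel_right]

theorem c2 {i j l : Fin n} (hij : i ≠ j) (hjl : j ≠ l) (hil : i ≠ l) (t u : K) :
    S.x j l u * S.x i j t * (S.x j l u)⁻¹ = S.x i l (-(t * u)) * S.x i j t := by
  rw [← x_inv S hil, ← S.mulc i j l hij hjl hil t u]
  group

theorem conj3 (A B z : Γ) :
    (A * B * A) * z * (A * B * A)⁻¹ = A * (B * (A * z * A⁻¹) * B⁻¹) * A⁻¹ := by group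

theorem cm (a b c : Γ) : a * (b * c) * a⁻¹ = (a * b * a⁻¹) * (a * c * a⁻¹) := by group

theorem sandwich {a b : Fin n} (hab : a ≠ b) (t : K) (y : Γ)
    (hc : S.x a b (-t) * y = y * S.x a b (-t)) : S.x a b (-t) * y * S.x a b t = y := by
  rw [hc, mul_assoc, S.add a b hab, neg_add_cancel, x_zero S hab, mul_one]

end A1a

open A1a

theorem w_conj_ik {i j k : Fin n} (hij : i ≠ j) (hik : i ≠ k) (hjk : j ≠ k) (u : Kˣ) (t : K) :
    S.w i j u * S.x i k t * (S.w i j u)⁻¹ = S.x j k (-(((u⁻¹ : Kˣ) : K) * t)) := by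
  have hu : (u : K) * ((u⁻¹ : Kˣ) : K) = 1 := Units.mul_inv u
  unfold StSys.w
  rw [conj3, c0 S hij hik hij.symm hik, c1 S hij.symm hik hjk, cm (S.x i j _), c1 S hij hjk hik,
    c0 S hij hik hij.symm hik]
  have e1 : (u : K) * (-((u⁻¹ : Kˣ) : K) * t) = -t := by linear_combination (-t) * hu
  rw [e1, sandwich S hik t _ (S.comm i k j k hik hjk hjk.symm hik _ _)]
  congr 1
  ring

theorem w_conj_jk {i j k : Fin n} (hij : i ≠ j) (hik : i ≠ k) (hjk : j ≠ k) (u : Kˣ) (t : K) :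
    S.w i j u * S.x j k t * (S.w i j u)⁻¹ = S.x i k ((u : K) * t) := by
  have hu : (u : K) * ((u⁻¹ : Kˣ) : K) = 1 := Units.mul_inv u
  unfold StSys.w
  rw [conj3, c1 S hij hjk hik, cm (S.x j i _), c1 S hij.symm hik hjk, c0 S hij.symm hjk hij hjk]
  have e1 : -((u⁻¹ : Kˣ) : K) * ((u : K) * t) = -t := by linear_combination (-t) * hu
  rw [e1, sandwich S hjk t _ (S.comm j k i k hjk hik hik.symm hjk _ _),
    c0 S hij hik hij.symm hik]

theorem w_conj_ki {i j k : Fin n} (hij : i ≠ j) (hik : i ≠ k) (hjk : j ≠ k) (u : Kˣ) (t : K) :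
    S.w i j u * S.x k i t * (S.w i j u)⁻¹ = S.x k j (-(t * (u : K))) := by
  have hu : (u : K) * ((u⁻¹ : Kˣ) : K) = 1 := Units.mul_inv u
  unfold StSys.w
  rw [conj3, c2 S hik.symm hij hjk.symm, cm (S.x j i _), c2 S hjk.symm hij.symm hik.symm,
    c0 S hij.symm hik.symm hik hij.symm]
  have e1 : -(-(t * (u : K)) * -((u⁻¹ : Kˣ) : K)) = -t := by linear_combination (-t) * hu
  rw [e1, sandwich S hik.symm t _ (S.comm k i k j hik.symm hjk.symm hik hjk.symm _ _),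
    c0 S hij hjk.symm hjk hij]

theorem w_conj_kj {i j k : Fin n} (hij : i ≠ j) (hik : i ≠ k) (hjk : j ≠ k) (u : Kˣ) (t : K) :
    S.w i j u * S.x k j t * (S.w i j u)⁻¹ = S.x k i (t * ((u⁻¹ : Kˣ) : K)) := by
  have hu : (u : K) * ((u⁻¹ : Kˣ) : K) = 1 := Units.mul_inv u
  unfold StSys.w
  rw [conj3, c0 S hij hjk.symm hjk hij, c2 S hjk.symm hij.symm hik.symm, cm (S.x i j _),
    c2 S hik.symm hij hjk.symm, c0 S hij hjk.symm hjk hij]
  have e1 : -(-(t * -((u⁻¹ : Kˣ) : K)) * (u : K)) = -t := by linear_combination (-t) * hu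
  rw [e1, sandwich S hjk.symm t _ (S.comm k j k i hjk.symm hik.symm hjk hik.symm _ _)]
  congr 1
  ring

theorem w_conj_kl {i j k l : Fin n} (hij : i ≠ j) (hkl : k ≠ l) (hik : i ≠ k) (hil : i ≠ l)
    (hjk : j ≠ k) (hjl : j ≠ l) (u : Kˣ) (t : K) :
    S.w i j u * S.x k l t * (S.w i j u)⁻¹ = S.x k l t := by
  unfold StSys.w
  rw [conj3, c0 S hij hkl hjk hil, c0 S hij.symm hkl hik hjl, c0 S hij hkl hjk hil]

end A

end Cfsg.Agent.Lib.Helper6.StSL
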