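import Cfsg.Agent.Lib.Helper6.StSL.Defs
import Cfsg.Agent.Lib.Helper6.StSL.A1a

/-! StSL farm, piece A1b: conjugation of `x_ij`, `x_ji` by `w_ij(u)` -/

set_option autoImplicit false

namespace Cfsg.Agent.Lib.Helper6.StSL

open Matrix
open scoped commutatorElement

universe u

variable {n : ℕ} {K : Type*} [Field K] {Γ : Type*} [Group Γ]

namespace A1b

theorem exists_third (hn : 3 ≤ n) (i j : Fin n) : ∃ k : Fin n, i ≠ k ∧ j ≠ k := by
  have h : (0 ≠ i.val ∧ 0 ≠ j.val) ∨ (1 ≠ i.val ∧ 1 ≠ j.val) ∨ (2 ≠ i.val ∧ 2 ≠ j.val) := by omega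
  rcases h with h | h | h
  · exact ⟨⟨0, by omega⟩, fun e => h.1 (by rw [e]), fun e => h.2 (by rw [e])⟩
  · exact ⟨⟨1, by omega⟩, fun e => h.1 (by rw [e]), fun e => h.2 (by rw [e])⟩
  · exact ⟨⟨2, by omega⟩, fun e => h.1 (by rw [e]), fun e => h.2 (by rw [e])⟩

theorem conj_comm (w a b : Γ) : w * (a * b * a⁻¹ * b⁻¹) * w⁻¹ =
    (w * a * w⁻¹) * (w * b * w⁻¹) * (w * a * w⁻¹)⁻¹ * (w * b * w⁻¹)⁻¹ := by group

end A1b

open A1b

section A
variable (S : StSys n K Γ)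

theorem w_conj_ij (hn : 3 ≤ n) {i j : Fin n} (hij : i ≠ j) (u : Kˣ) (t : K) :
    S.w i j u * S.x i j t * (S.w i j u)⁻¹ = S.x j i (-(((u⁻¹ : Kˣ) : K) ^ 2 * t)) := by
  obtain ⟨k, hik, hjk⟩ := exists_third hn i j
  have h1 : S.x i j t = S.x i k t * S.x k j 1 * (S.x i k t)⁻¹ * (S.x k j 1)⁻¹ := by
    rw [S.mulc i k j hik hjk.symm hij, mul_one]
  rw [h1, conj_comm, w_conj_ik S hij hik hjk, w_conj_kj S hij hik hjk,
    S.mulc j k i hjk hik.symm hij.symm]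
  congr 1
  ring

theorem w_conj_ji (hn : 3 ≤ n) {i j : Fin n} (hij : i ≠ j) (u : Kˣ) (t : K) :
    S.w i j u * S.x j i t * (S.w i j u)⁻¹ = S.x i j (-((u : K) ^ 2 * t)) := by
  obtain ⟨k, hik, hjk⟩ := exists_third hn i j
  have h1 : S.x j i t = S.x j k t * S.x k i 1 * (S.x j k t)⁻¹ * (S.x k i 1)⁻¹ := by
    rw [S.mulc j k i hjk hik.symm hij.symm, mul_one]
  rw [h1, conj_comm, w_conj_jk S hij hik hjk, w_conj_ki S hij hik hjk,
    S.mulc i k j hik hjk.symm hij]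
  congr 1
  ring

end A

end Cfsg.Agent.Lib.Helper6.StSL
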