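import Cfsg.Agent.Lib.Helper6.StSL.A1b

/-! StSL farm (helper6), piece A2 (helper52): monomial data. -/

set_option autoImplicit false
set_option linter.unusedSimpArgs false

namespace Cfsg.Agent.Lib.Helper6.StSL

open Matrix
open scoped commutatorElement

variable {n : ℕ} {K : Type*} [Field K] {Γ : Type*} [Group Γ]

section A
variable (S : StSys n K Γ)

theorem mon_w (hn : 3 ≤ n) {i j : Fin n} (hij : i ≠ j) (u : Kˣ) :
    S.Mon (S.w i j u) (Equiv.swap i j) (wv i j u) := by
  intro k l hkl t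
  by_cases hki : k = i
  · subst hki
    by_cases hlj : l = j
    · subst hlj
      rw [w_conj_ij S hn hij, Equiv.swap_apply_left, Equiv.swap_apply_right]
      congr 1
      simp [wv, hij]
      ring
    · have hjl : j ≠ l := fun h => hlj h.symm
      rw [w_conj_ik S hij hkl hjl, Equiv.swap_apply_left,
        Equiv.swap_apply_of_ne_of_ne hkl.symm hlj]
      congr 1
      simp [wv, hij, hlj, hkl.symm]
  · by_cases hkj : k = j
    · subst hkj
      by_cases hli : l = i
      · subst hli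
        rw [w_conj_ji S hn hij, Equiv.swap_apply_left, Equiv.swap_apply_right]
        congr 1
        simp [wv, hij]
        ring
      · have hil : i ≠ l := fun h => hli h.symm
        rw [w_conj_jk S hij hil hkl, Equiv.swap_apply_right,
          Equiv.swap_apply_of_ne_of_ne hli hkl.symm]
        congr 1
        simp [wv, hli, hkl.symm]
    · have hik : i ≠ k := fun h => hki h.symm
      have hjk : j ≠ k := fun h => hkj h.symm
      by_cases hli : l = i
      · subst hli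
        rw [w_conj_ki S hij hik hjk, Equiv.swap_apply_left,
          Equiv.swap_apply_of_ne_of_ne hki hkj]
        congr 1
        simp [wv, hij, hki, hkj]
      · by_cases hlj : l = j
        · subst hlj
          rw [w_conj_kj S hij hik hjk, Equiv.swap_apply_right,
            Equiv.swap_apply_of_ne_of_ne hki hkj]
          congr 1
          simp [wv, hki, hkj]
        · rw [w_conj_kl S hij hkl hik (fun h => hli h.symm) hjk (fun h => hlj h.symm),
            Equiv.swap_apply_of_ne_of_ne hki hkj, Equiv.swap_apply_of_ne_of_ne hli hlj]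
          congr 1
          simp [wv, hki, hkj, hli, hlj]

variable {S} in
theorem Mon.mul {g g' : Γ} {π π' : Equiv.Perm (Fin n)} {v v' : Fin n → Kˣ} (h : S.Mon g π v)
    (h' : S.Mon g' π' v') : S.Mon (g * g') (π * π') (fun k => v (π' k) * v' k) := by
  intro k l hkl t
  have h1 : g * g' * S.x k l t * (g * g')⁻¹ = g * (g' * S.x k l t * g'⁻¹) * g⁻¹ := by group
  rw [h1, h' k l hkl, h (π' k) (π' l) (fun e => hkl (π'.injective e))]
  simp only [Equiv.Perm.mul_apply]
  congr 1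
  simp only [Units.val_mul, mul_inv]
  ring

variable {S} in
theorem Mon.inv {g : Γ} {π : Equiv.Perm (Fin n)} {v : Fin n → Kˣ} (h : S.Mon g π v) :
    S.Mon g⁻¹ π⁻¹ (fun k => (v (π⁻¹ k))⁻¹) := by
  intro k l hkl t
  have hne : π⁻¹ k ≠ π⁻¹ l := fun e => hkl (π⁻¹.injective e)
  have h1 := h (π⁻¹ k) (π⁻¹ l) hne
    ((((v (π⁻¹ k))⁻¹ : Kˣ) : K) * t * ((((v (π⁻¹ l))⁻¹)⁻¹ : Kˣ) : K))
  have h2 : ((v (π⁻¹ k) : Kˣ) : K) *
      ((((v (π⁻¹ k))⁻¹ : Kˣ) : K) * t * ((((v (π⁻¹ l))⁻¹)⁻¹ : Kˣ) : K)) *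
      (((v (π⁻¹ l))⁻¹ : Kˣ) : K) = t := by
    rw [inv_inv]
    have a1 : ((v (π⁻¹ k) : Kˣ) : K) * (((v (π⁻¹ k))⁻¹ : Kˣ) : K) = 1 := Units.mul_inv _
    have a2 : ((v (π⁻¹ l) : Kˣ) : K) * (((v (π⁻¹ l))⁻¹ : Kˣ) : K) = 1 := Units.mul_inv _
    calc _ = (((v (π⁻¹ k) : Kˣ) : K) * (((v (π⁻¹ k))⁻¹ : Kˣ) : K)) * t *
          (((v (π⁻¹ l) : Kˣ) : K) * (((v (π⁻¹ l))⁻¹ : Kˣ) : K)) := by ring
      _ = t := by rw [a1, a2]; ring
  have e1 : π (π⁻¹ k) = k := by simp
  have e2 : π (π⁻¹ l) = l := by simp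
  rw [h2, e1, e2] at h1
  rw [← h1]
  group

theorem Mon.one : S.Mon 1 1 (fun _ => 1) := by
  intro k l hkl t
  simp

variable {S} in
theorem Mon.conj_w {g : Γ} {π : Equiv.Perm (Fin n)} {v : Fin n → Kˣ} (h : S.Mon g π v) {k l : Fin n}
    (hkl : k ≠ l) (u : Kˣ) : g * S.w k l u * g⁻¹ = S.w (π k) (π l) (v k * u * (v l)⁻¹) := by
  unfold StSys.w
  have h1 : g * (S.x k l (u : K) * S.x l k (-((u⁻¹ : Kˣ) : K)) * S.x k l (u : K)) * g⁻¹
      = (g * S.x k l (u : K) * g⁻¹) * (g * S.x l k (-((u⁻¹ : Kˣ) : K)) * g⁻¹) *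
        (g * S.x k l (u : K) * g⁻¹) := by group
  rw [h1, h k l hkl, h l k hkl.symm]
  have e1 : ((v k : Kˣ) : K) * (u : K) * (((v l)⁻¹ : Kˣ) : K) = ((v k * u * (v l)⁻¹ : Kˣ) : K) := by
    simp only [Units.val_mul]
  have e2 : ((v l : Kˣ) : K) * (-((u⁻¹ : Kˣ) : K)) * (((v k)⁻¹ : Kˣ) : K)
      = -(((v k * u * (v l)⁻¹)⁻¹ : Kˣ) : K) := by
    simp only [mul_inv, inv_inv, Units.val_mul]
    ring
  rw [e1, e2]

variable {S} in
theorem isMonMat_w {φ : Γ →* SLn n K} (hφ : Compat S φ) {i j : Fin n} (hij : i ≠ j) (u : Kˣ) :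
    IsMonMat (φ (S.w i j u)) (Equiv.swap i j) (wv i j u) := by
  have hM : ((φ (S.w i j u) : SLn n K) : Matrix (Fin n) (Fin n) K)
      = 1 - Matrix.single i i 1 - Matrix.single j j 1 + Matrix.single i j (u : K)
        - Matrix.single j i ((u⁻¹ : Kˣ) : K) := by
    unfold StSys.w
    rw [map_mul, map_mul, hφ i j hij, hφ j i hij.symm, Matrix.SpecialLinearGroup.coe_mul,
      Matrix.SpecialLinearGroup.coe_mul, tv_coe hij, tv_coe hij.symm]
    simp only [Matrix.transvection, mul_add, add_mul, one_mul, mul_one,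
      Matrix.single_mul_single_same,
      Matrix.single_mul_single_of_ne _ _ _ _ hij.symm]
    have a1 : (u : K) * -((u⁻¹ : Kˣ) : K) = -1 := by rw [mul_neg, Units.mul_inv]
    have a2 : -((u⁻¹ : Kˣ) : K) * (u : K) = -1 := by rw [neg_mul, Units.inv_mul]
    rw [a1, a2]
    ext a b
    simp only [Matrix.add_apply, Matrix.sub_apply, Matrix.single_apply, Matrix.zero_apply]
    split_ifs <;> ring
  intro a k
  rw [hM]
  simp only [Matrix.add_apply, Matrix.sub_apply, Matrix.one_apply, Matrix.single_apply]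
  rcases eq_or_ne k i with rfl | hki
  · rw [Equiv.swap_apply_left]
    rcases eq_or_ne a j with rfl | haj
    · simp [wv, hij, hij.symm]
    · rcases eq_or_ne a k with rfl | hak
      · simp [wv, hij, hij.symm]
      · simp [wv, hij, hij.symm, haj, haj.symm, hak, hak.symm]
  · rcases eq_or_ne k j with rfl | hkj
    · rw [Equiv.swap_apply_right]
      rcases eq_or_ne a i with rfl | hai
      · simp [wv, hij, hij.symm]
      · rcases eq_or_ne a k with rfl | hak
        · simp [wv, hij, hij.symm]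
        · simp [wv, hij, hij.symm, hai, hai.symm, hak, hak.symm]
    · rw [Equiv.swap_apply_of_ne_of_ne hki hkj]
      simp [wv, hki, hkj, hki.symm, hkj.symm]

theorem IsMonMat.mul {M M' : SLn n K} {π π' : Equiv.Perm (Fin n)} {v v' : Fin n → Kˣ}
    (h : IsMonMat M π v) (h' : IsMonMat M' π' v') :
    IsMonMat (M * M') (π * π') (fun k => v (π' k) * v' k) := by
  intro a k
  rw [Matrix.SpecialLinearGroup.coe_mul, Matrix.mul_apply]
  rw [Finset.sum_eq_single (π' k)]
  · rw [h a (π' k), h' (π' k) k, if_pos rfl]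
    by_cases hak : a = π (π' k)
    · rw [if_pos hak, if_pos (by rw [Equiv.Perm.mul_apply]; exact hak), Units.val_mul]
    · rw [if_neg hak, if_neg (by rw [Equiv.Perm.mul_apply]; exact hak), zero_mul]
  · intro b _ hb
    rw [h' b k, if_neg hb, mul_zero]
  · intro hb
    exact absurd (Finset.mem_univ _) hb

theorem IsMonMat.unique {M : SLn n K} {π π' : Equiv.Perm (Fin n)} {v v' : Fin n → Kˣ}
    (h : IsMonMat M π v) (h' : IsMonMat M π' v') : π = π' ∧ v = v' := by
  have hπ : ∀ k, π k = π' k := by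
    intro k
    by_contra hne
    have h1 := h (π k) k
    rw [if_pos rfl, h' (π k) k, if_neg hne] at h1
    exact (v k).ne_zero h1.symm
  refine ⟨Equiv.ext hπ, ?_⟩
  funext k
  have h1 := h (π k) k
  rw [if_pos rfl, h' (π k) k, if_pos (hπ k)] at h1
  exact (Units.ext h1).symm

theorem IsMonMat.inv {M : SLn n K} {π : Equiv.Perm (Fin n)} {v : Fin n → Kˣ} (h : IsMonMat M π v) :
    IsMonMat M⁻¹ π⁻¹ (fun k => (v (π⁻¹ k))⁻¹) := by
  have key : ∀ a k, ((M⁻¹ : SLn n K) : Matrix (Fin n) (Fin n) K) a (π k) * (v k : K)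
      = if a = k then 1 else 0 := by
    intro a k
    have h1 : (M⁻¹ * M : SLn n K) = 1 := inv_mul_cancel M
    have h2 := congrArg (fun X : SLn n K => (X : Matrix (Fin n) (Fin n) K) a k) h1
    simp only [Matrix.SpecialLinearGroup.coe_mul, Matrix.SpecialLinearGroup.coe_one,
      Matrix.mul_apply, Matrix.one_apply] at h2
    rw [Finset.sum_eq_single (π k)] at h2
    · rw [h (π k) k, if_pos rfl] at h2
      exact h2
    · intro b _ hb
      rw [h b k, if_neg hb, mul_zero]
    · intro hb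
      exact absurd (Finset.mem_univ _) hb
  intro a c
  have h1 := key a (π⁻¹ c)
  have e1 : π (π⁻¹ c) = c := by simp
  rw [e1] at h1
  have hv : ((v (π⁻¹ c) : Kˣ) : K) ≠ 0 := (v (π⁻¹ c)).ne_zero
  by_cases hac : a = π⁻¹ c
  · rw [if_pos hac] at h1 ⊢
    rw [Units.val_inv_eq_inv_val]
    exact eq_inv_of_mul_eq_one_left h1
  · rw [if_neg hac] at h1 ⊢
    rcases mul_eq_zero.1 h1 with h | h
    · exact h
    · exact absurd h hv

variable {S} in
theorem exists_mon (hn : 3 ≤ n) {φ : Γ →* SLn n K} (hφ : Compat S φ) :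
    ∀ g ∈ S.Wt, ∃ (π : Equiv.Perm (Fin n)) (v : Fin n → Kˣ), S.Mon g π v ∧ IsMonMat (φ g) π v := by
  intro g hg
  unfold StSys.Wt at hg
  induction hg using Subgroup.closure_induction with
  | mem x hx =>
    obtain ⟨i, j, u, hij, rfl⟩ := hx
    exact ⟨_, _, mon_w S hn hij u, isMonMat_w hφ hij u⟩
  | one =>
    refine ⟨1, fun _ => 1, Mon.one S, ?_⟩
    intro a k
    rw [map_one, Matrix.SpecialLinearGroup.coe_one, Matrix.one_apply]
    by_cases hak : a = k
    · rw [if_pos hak, if_pos (by simpa using hak), Units.val_one]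
    · rw [if_neg hak, if_neg (by simpa using hak)]
  | mul x y _ _ hx hy =>
    obtain ⟨π, v, h1, h2⟩ := hx
    obtain ⟨π', v', h1', h2'⟩ := hy
    refine ⟨_, _, Mon.mul h1 h1', ?_⟩
    rw [map_mul]
    exact h2.mul h2'
  | inv x _ hx =>
    obtain ⟨π, v, h1, h2⟩ := hx
    refine ⟨_, _, Mon.inv h1, ?_⟩
    rw [map_inv]
    exact h2.inv

end A

end Cfsg.Agent.Lib.Helper6.StSL
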