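import Cfsg.Agent.Lib.Helper6.StSL.Defs
import Cfsg.Agent.Lib.Helper6.StSL.A1b
import Cfsg.Agent.S2426

/-! StSL farm, piece A3: the rank one subgroups are images of `SL_2` -/

set_option autoImplicit false

namespace Cfsg.Agent.Lib.Helper6.StSL

open Matrix
open scoped commutatorElement

universe u

variable {n : ℕ} {K : Type*} [Field K] {Γ : Type*} [Group Γ]

namespace A3

theorem tv01 (t : K) : ((tv 0 1 t : SLn 2 K) : Matrix (Fin 2) (Fin 2) K) = !![1, t; 0, 1] := by
  rw [tv_coe (by decide)]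
  ext a b
  fin_cases a <;> fin_cases b <;> simp [Matrix.transvection, Matrix.single]

theorem tv10 (t : K) : ((tv 1 0 t : SLn 2 K) : Matrix (Fin 2) (Fin 2) K) = !![1, 0; t, 1] := by
  rw [tv_coe (by decide)]
  ext a b
  fin_cases a <;> fin_cases b <;> simp [Matrix.transvection, Matrix.single]

theorem w_mk0 (S : StSys n K Γ) (i j : Fin n) (t : K) (ht : t ≠ 0) :
    S.x i j t * S.x j i (-t⁻¹) * S.x i j t = S.w i j (Units.mk0 t ht) := by
  unfold StSys.w
  simp

end A3

open A3

section A
variable (S : StSys n K Γ)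

theorem exists_rho [Finite K] (hn : 3 ≤ n) {i j : Fin n} (hij : i ≠ j) :
    ∃ ρ : SLn 2 K →* Γ, (∀ t, ρ (tv 0 1 t) = S.x i j t) ∧ (∀ t, ρ (tv 1 0 t) = S.x j i t) := by
  obtain ⟨e, he1, he2⟩ := Cfsg.Agent.S2426.result (K := K)
  let f : Bool × K → Γ := fun p => if p.1 = true then S.x i j p.2 else S.x j i p.2
  have ft : ∀ t, f (true, t) = S.x i j t := fun t => by simp [f]
  have ff : ∀ t, f (false, t) = S.x j i t := fun t => by simp [f]
  have hrel : ∀ r ∈ ({g : FreeGroup (Bool × K) | ∃ (b : Bool) (t u : K),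
        g = FreeGroup.of (b, t) * FreeGroup.of (b, u) * (FreeGroup.of (b, t + u))⁻¹} ∪
      {g | ∃ (b : Bool) (t u : K), t ≠ 0 ∧
        g = (FreeGroup.of (b, t) * FreeGroup.of (!b, -t⁻¹) * FreeGroup.of (b, t)) *
              FreeGroup.of (b, u) *
              (FreeGroup.of (b, t) * FreeGroup.of (!b, -t⁻¹) * FreeGroup.of (b, t))⁻¹ *
              (FreeGroup.of (!b, -(t⁻¹ ^ 2 * u)))⁻¹}), FreeGroup.lift f r = 1 := by
    rintro r (⟨b, t, u, rfl⟩ | ⟨b, t, u, ht, rfl⟩)
    · simp only [map_mul, map_inv, FreeGroup.lift_apply_of]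
      cases b
      · rw [ff, ff, ff, S.add j i hij.symm, mul_inv_cancel]
      · rw [ft, ft, ft, S.add i j hij, mul_inv_cancel]
    · simp only [map_mul, map_inv, FreeGroup.lift_apply_of]
      cases b
      · simp only [Bool.not_false]
        rw [ff, ff, ft, ft, w_mk0 S j i t ht, w_conj_ij S hn hij.symm]
        simp
      · simp only [Bool.not_true]
        rw [ft, ft, ff, ff, w_mk0 S i j t ht, w_conj_ij S hn hij]
        simp
  refine ⟨(PresentedGroup.toGroup hrel).comp e.symm.toMonoidHom, fun t => ?_, fun t => ?_⟩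
  · have h1 : e (PresentedGroup.of (true, t)) = tv 0 1 t := by
      apply Subtype.ext
      rw [he1, tv01]
    rw [← h1]
    simp only [MonoidHom.comp_apply, MulEquiv.coe_toMonoidHom, MulEquiv.symm_apply_apply,
      PresentedGroup.toGroup.of, ft]
  · have h1 : e (PresentedGroup.of (false, t)) = tv 1 0 t := by
      apply Subtype.ext
      rw [he2, tv10]
    rw [← h1]
    simp only [MonoidHom.comp_apply, MulEquiv.coe_toMonoidHom, MulEquiv.symm_apply_apply,
      PresentedGroup.toGroup.of, ff]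

end A

end Cfsg.Agent.Lib.Helper6.StSL
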