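import Cfsg.Agent.Lib.Helper6.StSL.Defs
import Cfsg.Agent.Lib.Helper6.StSL.A3

/-! StSL farm, piece A4: the rank one identities for `w` and `h` -/

set_option autoImplicit false

namespace Cfsg.Agent.Lib.Helper6.StSL

open Matrix
open scoped commutatorElement

universe u

variable {n : ℕ} {K : Type*} [Field K] {Γ : Type*} [Group Γ]

namespace A4

/-- `w_{01}(u)` in `SL_2` -/
def W (u : Kˣ) : SLn 2 K := tv 0 1 (u : K) * tv 1 0 (-((u⁻¹ : Kˣ) : K)) * tv 0 1 (u : K)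

/-- `w_{10}(u)` in `SL_2` -/
def W' (u : Kˣ) : SLn 2 K := tv 1 0 (u : K) * tv 0 1 (-((u⁻¹ : Kˣ) : K)) * tv 1 0 (u : K)

theorem W_coe (u : Kˣ) :
    ((W u : SLn 2 K) : Matrix (Fin 2) (Fin 2) K) = !![0, (u : K); -((u⁻¹ : Kˣ) : K), 0] := by
  unfold W
  rw [Matrix.SpecialLinearGroup.coe_mul, Matrix.SpecialLinearGroup.coe_mul, A3.tv01, A3.tv10,
    Matrix.mul_fin_two, Matrix.mul_fin_two]
  simp

theorem W'_coe (u : Kˣ) :
    ((W' u : SLn 2 K) : Matrix (Fin 2) (Fin 2) K) = !![0, -((u⁻¹ : Kˣ) : K); (u : K), 0] := by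
  unfold W'
  rw [Matrix.SpecialLinearGroup.coe_mul, Matrix.SpecialLinearGroup.coe_mul, A3.tv01, A3.tv10,
    Matrix.mul_fin_two, Matrix.mul_fin_two]
  simp

theorem H_coe (u : Kˣ) : ((W u * W (-1) : SLn 2 K) : Matrix (Fin 2) (Fin 2) K) =
    !![(u : K), 0; 0, ((u⁻¹ : Kˣ) : K)] := by
  rw [Matrix.SpecialLinearGroup.coe_mul, W_coe, W_coe, Matrix.mul_fin_two]
  simp

theorem H'_coe (u : Kˣ) : ((W' u * W' (-1) : SLn 2 K) : Matrix (Fin 2) (Fin 2) K) =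
    !![((u⁻¹ : Kˣ) : K), 0; 0, (u : K)] := by
  rw [Matrix.SpecialLinearGroup.coe_mul, W'_coe, W'_coe, Matrix.mul_fin_two]
  simp

theorem H_mul (u v : Kˣ) : (W (u * v) * W (-1) : SLn 2 K) = (W u * W (-1)) * (W v * W (-1)) := by
  apply Subtype.ext
  rw [Matrix.SpecialLinearGroup.coe_mul (W u * W (-1)), H_coe, H_coe, H_coe, Matrix.mul_fin_two]
  simp [mul_comm]

theorem H_one : (W 1 * W (-1) : SLn 2 K) = 1 := by
  apply Subtype.ext
  rw [H_coe]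
  simp [Matrix.one_fin_two]

theorem W_inv (u : Kˣ) : (W u : SLn 2 K)⁻¹ = W (-u) := by
  apply inv_eq_of_mul_eq_one_right
  apply Subtype.ext
  rw [Matrix.SpecialLinearGroup.coe_mul, W_coe, W_coe, Matrix.mul_fin_two]
  simp [Matrix.one_fin_two, inv_neg]

theorem W_swap (u : Kˣ) : (W' u : SLn 2 K) = W (-u⁻¹) := by
  apply Subtype.ext
  rw [W_coe, W'_coe]
  simp [inv_neg]

theorem W_eq (u : Kˣ) : (W u : SLn 2 K) = (W u * W (-1)) * W 1 := by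
  apply Subtype.ext
  rw [Matrix.SpecialLinearGroup.coe_mul (W u * W (-1)), H_coe, W_coe, W_coe, Matrix.mul_fin_two]
  simp

theorem H_swap (u : Kˣ) : (W' u * W' (-1) : SLn 2 K) = W u⁻¹ * W (-1) := by
  apply Subtype.ext
  rw [H_coe, H'_coe]
  simp

end A4

open A4

section A
variable (S : StSys n K Γ)

namespace A4

theorem rho_W {i j : Fin n} {ρ : SLn 2 K →* Γ} (h1 : ∀ t, ρ (tv 0 1 t) = S.x i j t)
    (h2 : ∀ t, ρ (tv 1 0 t) = S.x j i t) (u : Kˣ) : ρ (W u) = S.w i j u := by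
  unfold W StSys.w
  rw [map_mul, map_mul, h1, h2]

theorem rho_W' {i j : Fin n} {ρ : SLn 2 K →* Γ} (h1 : ∀ t, ρ (tv 0 1 t) = S.x i j t)
    (h2 : ∀ t, ρ (tv 1 0 t) = S.x j i t) (u : Kˣ) : ρ (W' u) = S.w j i u := by
  unfold W' StSys.w
  rw [map_mul, map_mul, h1, h2]

end A4

theorem h_mul [Finite K] (hn : 3 ≤ n) {i j : Fin n} (hij : i ≠ j) (u v : Kˣ) :
    S.h i j (u * v) = S.h i j u * S.h i j v := by
  obtain ⟨ρ, h1, h2⟩ := exists_rho S hn hij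
  unfold StSys.h
  simp only [← rho_W S h1 h2, ← map_mul]
  rw [H_mul]

theorem h_one [Finite K] (hn : 3 ≤ n) {i j : Fin n} (hij : i ≠ j) : S.h i j 1 = 1 := by
  obtain ⟨ρ, h1, h2⟩ := exists_rho S hn hij
  unfold StSys.h
  simp only [← rho_W S h1 h2, ← map_mul]
  rw [H_one, map_one]

theorem w_inv [Finite K] (hn : 3 ≤ n) {i j : Fin n} (hij : i ≠ j) (u : Kˣ) :
    (S.w i j u)⁻¹ = S.w i j (-u) := by
  obtain ⟨ρ, h1, h2⟩ := exists_rho S hn hij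
  simp only [← rho_W S h1 h2, ← map_inv]
  rw [W_inv]

theorem w_swap [Finite K] (hn : 3 ≤ n) {i j : Fin n} (hij : i ≠ j) (u : Kˣ) :
    S.w j i u = S.w i j (-u⁻¹) := by
  obtain ⟨ρ, h1, h2⟩ := exists_rho S hn hij
  rw [← rho_W S h1 h2, ← rho_W' S h1 h2, W_swap]

theorem w_eq_h_mul [Finite K] (hn : 3 ≤ n) {i j : Fin n} (hij : i ≠ j) (u : Kˣ) :
    S.w i j u = S.h i j u * S.w i j 1 := by
  obtain ⟨ρ, h1, h2⟩ := exists_rho S hn hij
  unfold StSys.h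
  simp only [← rho_W S h1 h2, ← map_mul]
  rw [← W_eq]

theorem h_swap [Finite K] (hn : 3 ≤ n) {i j : Fin n} (hij : i ≠ j) (u : Kˣ) :
    S.h j i u = S.h i j u⁻¹ := by
  obtain ⟨ρ, h1, h2⟩ := exists_rho S hn hij
  unfold StSys.h
  simp only [← rho_W S h1 h2, ← rho_W' S h1 h2, ← map_mul]
  rw [H_swap]

end A

end Cfsg.Agent.Lib.Helper6.StSL
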