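import Cfsg.Agent.Lib.Helper6.StSL.A2
import Cfsg.Agent.Lib.Helper6.StSL.A4

/-! # StSL farm, piece A5a (helper88): the elements `h_ij(u)` -/

set_option autoImplicit false

namespace Cfsg.Agent.Lib.Helper6.StSL

open Matrix

variable {n : ℕ} {K : Type*} [Field K] {Γ : Type*} [Group Γ]

namespace A5a

theorem wv_mul (i j : Fin n) (hij : i ≠ j) (u : Kˣ) :
    (fun k => wv i j u (Equiv.swap i j k) * wv i j (-1) k) = hv i j u := by
  funext k
  by_cases hki : k = i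
  · subst hki
    simp [wv, hv, hij]
  · by_cases hkj : k = j
    · subst hkj
      simp [wv, hv, hij, hki]
    · simp [wv, hv, hki, hkj, Equiv.swap_apply_of_ne_of_ne hki hkj]

end A5a

section A
variable (S : StSys n K Γ)

theorem mon_h (hn : 3 ≤ n) {i j : Fin n} (hij : i ≠ j) (u : Kˣ) :
    S.Mon (S.h i j u) 1 (hv i j u) := by
  have h := Mon.mul (mon_w S hn hij u) (mon_w S hn hij (-1))
  rw [Equiv.swap_mul_self, A5a.wv_mul i j hij u] at h
  exact h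

variable {S} in
theorem isMonMat_h {φ : Γ →* SLn n K} (hφ : Compat S φ) {i j : Fin n} (hij : i ≠ j) (u : Kˣ) :
    IsMonMat (φ (S.h i j u)) 1 (hv i j u) := by
  have h := (isMonMat_w hφ hij u).mul (isMonMat_w hφ hij (-1))
  rw [Equiv.swap_mul_self, A5a.wv_mul i j hij u, ← map_mul] at h
  exact h

variable {S} in
theorem Mon.conj_h [Finite K] (hn : 3 ≤ n) {g : Γ} {π : Equiv.Perm (Fin n)} {v : Fin n → Kˣ}
    (h : S.Mon g π v) {k l : Fin n} (hkl : k ≠ l) (u : Kˣ) :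
    g * S.h k l u * g⁻¹ = S.h (π k) (π l) u := by
  have hkl' : π k ≠ π l := fun e => hkl (π.injective e)
  have e1 : g * S.h k l u * g⁻¹ = (g * S.w k l u * g⁻¹) * (g * S.w k l (-1) * g⁻¹) := by
    unfold StSys.h; group
  rw [e1, Mon.conj_w h hkl, Mon.conj_w h hkl]
  have e2 : v k * (-1) * (v l)⁻¹ = -(v k * (v l)⁻¹) := by simp
  have e3 : v k * u * (v l)⁻¹ = u * (v k * (v l)⁻¹) := by
    rw [mul_comm (v k) u, mul_assoc]
  rw [e2, e3, ← w_inv S hn hkl', w_eq_h_mul S hn hkl' (u * _), w_eq_h_mul S hn hkl' (v k * (v l)⁻¹),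
    h_mul S hn hkl']
  group

theorem Ht_comm [Finite K] (hn : 3 ≤ n) : ∀ a ∈ S.Ht, ∀ b ∈ S.Ht, a * b = b * a := by
  have hc : ∀ x ∈ {g | ∃ (i j : Fin n) (u : Kˣ), i ≠ j ∧ g = S.h i j u},
      ∀ y ∈ {g | ∃ (i j : Fin n) (u : Kˣ), i ≠ j ∧ g = S.h i j u}, x * y = y * x := by
    rintro x ⟨i, j, u, hij, rfl⟩ y ⟨k, l, v, hkl, rfl⟩
    have := Mon.conj_h hn (mon_h S hn hij u) hkl v
    simp only [Equiv.Perm.coe_one, id_eq] at this
    rw [mul_inv_eq_iff_eq_mul] at this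
    exact this
  intro a ha b hb
  have := (Subgroup.isMulCommutative_closure hc).is_comm.comm ⟨a, ha⟩ ⟨b, hb⟩
  exact congrArg Subtype.val this

theorem h_jk [Finite K] (hn : 3 ≤ n) {i j k : Fin n} (hij : i ≠ j) (hik : i ≠ k) (hjk : j ≠ k)
    (u : Kˣ) : S.h j k u = S.h i k u * (S.h i j u)⁻¹ := by
  have h1 := Mon.conj_h hn (mon_w S hn hij 1) hik u
  rw [Equiv.swap_apply_left, Equiv.swap_apply_of_ne_of_ne hik.symm hjk.symm] at h1
  have h2 := Mon.conj_w (Mon.inv (mon_h S hn hik u)) hij 1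
  simp only [inv_one, Equiv.Perm.coe_one, id_eq, inv_inv, mul_one] at h2
  have e1 : hv i k u i = u := by simp [hv]
  have e2 : hv i k u j = 1 := by simp [hv, hij.symm, hjk]
  rw [e1, e2, mul_one] at h2
  have e3 : (S.h i j u)⁻¹ = S.h i j u⁻¹ := by
    rw [inv_eq_iff_mul_eq_one, ← h_mul S hn hij, mul_inv_cancel, h_one S hn hij]
  rw [← h1, e3]
  have e4 : S.h i j u⁻¹ = S.w i j u⁻¹ * (S.w i j 1)⁻¹ := by
    rw [w_inv S hn hij]; rfl
  rw [e4, ← h2]
  group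

end A

end Cfsg.Agent.Lib.Helper6.StSL
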