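import Cfsg.Agent.Lib.Helper6.StSL.A5a

/-! # StSL farm, piece A5b (helper88): `φ` is injective on `Ht` -/

set_option autoImplicit false

namespace Cfsg.Agent.Lib.Helper6.StSL

open Matrix

variable {n : ℕ} {K : Type*} [Field K] {Γ : Type*} [Group Γ]

namespace A5b

variable (S : StSys n K Γ)

/-- the one-parameter subgroups `u ↦ h_{i0 j}(u)` (trivial for `j = i0`) -/
noncomputable def hh [Finite K] (hn : 3 ≤ n) (i0 j : Fin n) : Kˣ →* Γ :=
  if hj : i0 = j then 1 else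
    { toFun := fun u => S.h i0 j u
      map_one' := h_one S hn hj
      map_mul' := fun u v => h_mul S hn hj u v }

theorem hh_self [Finite K] (hn : 3 ≤ n) (i0 : Fin n) (u : Kˣ) : hh S hn i0 i0 u = 1 := by
  simp [hh]

theorem hh_of_ne [Finite K] (hn : 3 ≤ n) {i0 j : Fin n} (hj : i0 ≠ j) (u : Kˣ) :
    hh S hn i0 j u = S.h i0 j u := by
  simp [hh, hj]

theorem hh_mem [Finite K] (hn : 3 ≤ n) (i0 j : Fin n) (u : Kˣ) : hh S hn i0 j u ∈ S.Ht := by
  by_cases hj : i0 = j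
  · subst hj; rw [hh_self]; exact one_mem _
  · rw [hh_of_ne S hn hj]; exact Subgroup.subset_closure ⟨i0, j, u, hj, rfl⟩

theorem hh_comm [Finite K] (hn : 3 ≤ n) (i0 : Fin n) :
    Pairwise fun i j => ∀ x y : Kˣ, Commute (hh S hn i0 i x) (hh S hn i0 j y) :=
  fun i j _ x y => Ht_comm S hn _ (hh_mem S hn i0 i x) _ (hh_mem S hn i0 j y)

/-- the product map -/
noncomputable def Θ [Finite K] (hn : 3 ≤ n) (i0 : Fin n) : (Fin n → Kˣ) →* Γ :=
  MonoidHom.noncommPiCoprod (fun j => hh S hn i0 j) (hh_comm S hn i0)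

theorem Θ_mulSingle [Finite K] (hn : 3 ≤ n) (i0 j : Fin n) (u : Kˣ) :
    Θ S hn i0 (Pi.mulSingle j u) = hh S hn i0 j u := by
  unfold Θ
  rw [MonoidHom.noncommPiCoprod_mulSingle]

theorem Ht_le_range [Finite K] (hn : 3 ≤ n) (i0 : Fin n) : S.Ht ≤ (Θ S hn i0).range := by
  have hmem : ∀ j u, hh S hn i0 j u ∈ (Θ S hn i0).range :=
    fun j u => ⟨Pi.mulSingle j u, Θ_mulSingle S hn i0 j u⟩
  unfold StSys.Ht
  rw [Subgroup.closure_le]
  rintro g ⟨a, b, u, hab, rfl⟩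
  by_cases ha : i0 = a
  · subst ha
    rw [← hh_of_ne S hn hab]; exact hmem _ _
  · by_cases hb : i0 = b
    · subst hb
      rw [h_swap S hn ha, ← hh_of_ne S hn ha]; exact hmem _ _
    · rw [h_jk S hn ha hb hab, ← hh_of_ne S hn ha, ← hh_of_ne S hn hb]
      exact mul_mem (hmem _ _) (inv_mem (hmem _ _))

theorem isMonMat_one : IsMonMat (1 : SLn n K) 1 (fun _ => 1) := by
  intro a k
  rw [Matrix.SpecialLinearGroup.coe_one, Matrix.one_apply, Equiv.Perm.coe_one, id_eq,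
    Units.val_one]

variable {S} in
theorem isMonMat_Θ [Finite K] (hn : 3 ≤ n) {φ : Γ →* SLn n K} (hφ : Compat S φ) (i0 : Fin n)
    (u : Fin n → Kˣ) :
    ∃ v : Fin n → Kˣ, IsMonMat (φ (Θ S hn i0 u)) 1 v ∧ ∀ k, k ≠ i0 → v k = (u k)⁻¹ := by
  rw [← Finset.univ_prod_mulSingle u]
  refine Finset.prod_induction (fun i => Pi.mulSingle i (u i))
    (fun u => ∃ v : Fin n → Kˣ, IsMonMat (φ (Θ S hn i0 u)) 1 v ∧ ∀ k, k ≠ i0 → v k = (u k)⁻¹)
    ?_ ?_ ?_
  · rintro a b ⟨v, hv, hv'⟩ ⟨w, hw, hw'⟩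
    refine ⟨fun k => v ((1 : Equiv.Perm (Fin n)) k) * w k, ?_, ?_⟩
    · have := IsMonMat.mul hv hw
      rw [← map_mul, ← map_mul, one_mul] at this
      exact this
    · intro k hk
      simp only [Equiv.Perm.coe_one, id_eq, Pi.mul_apply, mul_inv]
      rw [hv' k hk, hw' k hk]
  · exact ⟨fun _ => 1, by rw [map_one, map_one]; exact isMonMat_one, by simp⟩
  · intro j _
    rw [Θ_mulSingle]
    by_cases hj : i0 = j
    · subst hj
      rw [hh_self, map_one]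
      refine ⟨fun _ => 1, isMonMat_one, ?_⟩
      intro k hk
      rw [Pi.mulSingle_eq_of_ne hk, inv_one]
    · rw [hh_of_ne S hn hj]
      refine ⟨_, isMonMat_h hφ hj (u j), ?_⟩
      intro k hk
      by_cases hkj : k = j
      · subst hkj
        simp [hv, hk]
      · rw [Pi.mulSingle_eq_of_ne hkj, inv_one]
        simp [hv, hk, hkj]

end A5b

variable {S : StSys n K Γ} in
theorem Ht_inj [Finite K] (hn : 3 ≤ n) {φ : Γ →* SLn n K} (hφ : Compat S φ) :
    ∀ g ∈ S.Ht, φ g = 1 → g = 1 := by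
  intro g hg h1
  let i0 : Fin n := ⟨0, by omega⟩
  obtain ⟨u, rfl⟩ := A5b.Ht_le_range S hn i0 hg
  obtain ⟨v, hv, hv'⟩ := A5b.isMonMat_Θ hn hφ i0 u
  rw [h1] at hv
  have hv1 := (IsMonMat.unique hv A5b.isMonMat_one).2
  have hu : u = Pi.mulSingle i0 (u i0) := by
    funext k
    by_cases hk : k = i0
    · subst hk; simp
    · rw [Pi.mulSingle_eq_of_ne hk]
      have := hv' k hk
      rw [hv1] at this
      simpa using this.symm
  rw [hu, A5b.Θ_mulSingle, A5b.hh_self]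

end Cfsg.Agent.Lib.Helper6.StSL
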