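import Cfsg.Agent.Lib.Helper6.StSL.Defs
import Cfsg.Agent.Lib.Helper6.StSL.A1a
import Cfsg.Agent.Lib.Helper6.StSL.A2
import Cfsg.Agent.Lib.Helper6.StSL.A4
import Cfsg.Agent.Lib.Helper6.StSL.A5a

/-! StSL farm (helper6), piece A6a (helper91). -/

set_option autoImplicit false

namespace Cfsg.Agent.Lib.Helper6.StSL

open Matrix
open scoped commutatorElement

variable {n : ℕ} {K : Type*} [Field K] {Γ : Type*} [Group Γ]

section A
variable (S : StSys n K Γ)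

theorem Ht_le_Wt : S.Ht ≤ S.Wt := by
  unfold StSys.Ht
  rw [Subgroup.closure_le]
  rintro _ ⟨i, j, u, hij, rfl⟩
  exact S.Wt.mul_mem (Subgroup.subset_closure ⟨i, j, u, hij, rfl⟩)
    (Subgroup.subset_closure ⟨i, j, -1, hij, rfl⟩)

namespace A6a

/-- every element of `Wt` acts monomially. -/
theorem exists_Mon (hn : 3 ≤ n) : ∀ g ∈ S.Wt, ∃ (π : Equiv.Perm (Fin n)) (v : Fin n → Kˣ), S.Mon g π v := by
  intro g hg
  unfold StSys.Wt at hg
  induction hg using Subgroup.closure_induction with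
  | mem x hx =>
    obtain ⟨i, j, u, hij, rfl⟩ := hx
    exact ⟨_, _, mon_w S hn hij u⟩
  | one => exact ⟨_, _, Mon.one S⟩
  | mul x y _ _ hx hy =>
    obtain ⟨π, v, h⟩ := hx
    obtain ⟨π', v', h'⟩ := hy
    exact ⟨_, _, Mon.mul h h'⟩
  | inv x _ hx =>
    obtain ⟨π, v, h⟩ := hx
    exact ⟨_, _, Mon.inv h⟩

variable {S} in
theorem conj_mem_Ht [Finite K] (hn : 3 ≤ n) {g : Γ} {π : Equiv.Perm (Fin n)} {v : Fin n → Kˣ}
    (h : S.Mon g π v) : ∀ a ∈ S.Ht, g * a * g⁻¹ ∈ S.Ht := by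
  intro a ha
  unfold StSys.Ht at ha
  induction ha using Subgroup.closure_induction with
  | mem x hx =>
    obtain ⟨k, l, u, hkl, rfl⟩ := hx
    rw [Mon.conj_h hn h hkl u]
    exact Subgroup.subset_closure ⟨π k, π l, u, fun e => hkl (π.injective e), rfl⟩
  | one => rw [mul_one, mul_inv_cancel]; exact S.Ht.one_mem
  | mul x y _ _ hx hy =>
    have e : g * (x * y) * g⁻¹ = (g * x * g⁻¹) * (g * y * g⁻¹) := by group
    rw [e]
    exact S.Ht.mul_mem hx hy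
  | inv x _ hx =>
    have e : g * x⁻¹ * g⁻¹ = (g * x * g⁻¹)⁻¹ := by group
    rw [e]
    exact S.Ht.inv_mem hx

/-- `w_ij(1) w_jk(1) w_ij(1)⁻¹ = w_ik(1)`. -/
theorem conj_left (hn : 3 ≤ n) {i j k : Fin n} (hij : i ≠ j) (hik : i ≠ k) (hjk : j ≠ k) :
    S.w i j 1 * S.w j k 1 * (S.w i j 1)⁻¹ = S.w i k 1 := by
  rw [Mon.conj_w (mon_w S hn hij 1) hjk 1, Equiv.swap_apply_right, Equiv.swap_apply_of_ne_of_ne hik.symm hjk.symm]
  congr 1
  simp [wv, hik.symm, hjk.symm]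

/-- `w_jk(1)⁻¹ w_ij(1) w_jk(1) = w_ik(1)`. -/
theorem conj_right [Finite K] (hn : 3 ≤ n) {i j k : Fin n} (hij : i ≠ j) (hik : i ≠ k) (hjk : j ≠ k) :
    (S.w j k 1)⁻¹ * S.w i j 1 * S.w j k 1 = S.w i k 1 := by
  have h1 := Mon.conj_w (mon_w S hn hjk (-1)) hij 1
  rw [Equiv.swap_apply_left, Equiv.swap_apply_of_ne_of_ne hij hik, ← w_inv S hn hjk 1, inv_inv] at h1
  rw [h1]
  congr 1
  simp [wv, hij, hik, hjk]

end A6a

theorem Ht_normal [Finite K] (hn : 3 ≤ n) : ∀ g ∈ S.Wt, ∀ a ∈ S.Ht, g * a * g⁻¹ ∈ S.Ht := by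
  intro g hg
  obtain ⟨π, v, h⟩ := A6a.exists_Mon S hn g hg
  exact A6a.conj_mem_Ht hn h

theorem s_sq [Finite K] (hn : 3 ≤ n) {i j : Fin n} (hij : i ≠ j) : S.w i j 1 * S.w i j 1 ∈ S.Ht := by
  have h1 : S.h i j (-1) ∈ S.Ht := Subgroup.subset_closure ⟨i, j, -1, hij, rfl⟩
  have h2 : (S.w i j (-1))⁻¹ = S.w i j 1 := by rw [w_inv S hn hij, neg_neg]
  have h3 : S.w i j 1 * S.w i j 1 = (S.h i j (-1))⁻¹ := by
    unfold StSys.h
    rw [_root_.mul_inv_rev, h2]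
  rw [h3]
  exact S.Ht.inv_mem h1

theorem s_far {i j k l : Fin n} (hij : i ≠ j) (hkl : k ≠ l) (hik : i ≠ k) (hil : i ≠ l)
    (hjk : j ≠ k) (hjl : j ≠ l) : S.w i j 1 * S.w k l 1 = S.w k l 1 * S.w i j 1 := by
  have h1 : ∀ t, Commute (S.w i j 1) (S.x k l t) := by
    intro t
    exact mul_inv_eq_iff_eq_mul.1 (w_conj_kl S hij hkl hik hil hjk hjl 1 t)
  have h2 : ∀ t, Commute (S.w i j 1) (S.x l k t) := by
    intro t
    exact mul_inv_eq_iff_eq_mul.1 (w_conj_kl S hij hkl.symm hil hik hjl hjk 1 t)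
  have h3 : Commute (S.w i j 1) (S.w k l 1) := by
    unfold StSys.w at *
    exact ((h1 _).mul_right (h2 _)).mul_right (h1 _)
  exact h3.eq

theorem s_braid [Finite K] (hn : 3 ≤ n) {i j k : Fin n} (hij : i ≠ j) (hik : i ≠ k) (hjk : j ≠ k) :
    S.w i j 1 * S.w j k 1 * S.w i j 1 = S.w j k 1 * S.w i j 1 * S.w j k 1 := by
  have h1 := A6a.conj_left S hn hij hik hjk
  have h2 := A6a.conj_right S hn hij hik hjk
  rw [← h2] at h1
  calc S.w i j 1 * S.w j k 1 * S.w i j 1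
      = S.w j k 1 * ((S.w j k 1)⁻¹ * S.w i j 1 * S.w j k 1) * S.w i j 1 := by group
    _ = S.w j k 1 * (S.w i j 1 * S.w j k 1 * (S.w i j 1)⁻¹) * S.w i j 1 := by rw [h1]
    _ = S.w j k 1 * S.w i j 1 * S.w j k 1 := by group

end A

end Cfsg.Agent.Lib.Helper6.StSL
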