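import Cfsg.Agent.Lib.Helper6.StSL.Defs
import Cfsg.Agent.Lib.Helper6.StSL.A4
import Cfsg.Agent.Lib.Helper6.StSL.A6a

/-! StSL farm (helper6), piece A6b (helper91). -/

set_option autoImplicit false

namespace Cfsg.Agent.Lib.Helper6.StSL

open Matrix
open scoped commutatorElement

variable {n : ℕ} {K : Type*} [Field K] {Γ : Type*} [Group Γ]

section A
variable (S : StSys n K Γ)

theorem Wt_eq_sup [Finite K] (hn : 3 ≤ n) :
    S.Wt = S.Ht ⊔ Subgroup.closure {g | ∃ (i j : Fin n), i.val + 1 = j.val ∧ g = S.w i j 1} := by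
  set L := S.Ht ⊔ Subgroup.closure {g | ∃ (i j : Fin n), i.val + 1 = j.val ∧ g = S.w i j 1} with hL
  have hHL : S.Ht ≤ L := le_sup_left
  have hgen : ∀ i j : Fin n, i.val + 1 = j.val → S.w i j 1 ∈ L := by
    intro i j hij
    exact (le_sup_right : _ ≤ L) (Subgroup.subset_closure ⟨i, j, hij, rfl⟩)
  have hh : ∀ (i j : Fin n) (u : Kˣ), i ≠ j → S.h i j u ∈ L := by
    intro i j u hij
    exact hHL (Subgroup.subset_closure ⟨i, j, u, hij, rfl⟩)
  -- `w_ij(1)` for `i < j`
  have hlt : ∀ (d : ℕ) (i j : Fin n), i.val + (d + 1) = j.val → S.w i j 1 ∈ L := by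
    intro d
    induction d with
    | zero => intro i j hij; exact hgen i j (by omega)
    | succ d ih =>
      intro i j hij
      have hj' : j.val - 1 < n := by have := j.2; omega
      set j' : Fin n := ⟨j.val - 1, hj'⟩ with hj'def
      have hv : j'.val = j.val - 1 := rfl
      have h1 : S.w i j' 1 ∈ L := ih i j' (by omega)
      have h2 : S.w j' j 1 ∈ L := hgen j' j (by omega)
      have hij' : i ≠ j' := by intro e; rw [e] at hij; omega
      have hij2 : i ≠ j := by intro e; rw [e] at hij; omega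
      have hj'j : j' ≠ j := by intro e; rw [← e] at hv; omega
      rw [← A6a.conj_right S hn hij' hij2 hj'j]
      exact L.mul_mem (L.mul_mem (L.inv_mem h2) h1) h2
  have hall1 : ∀ i j : Fin n, i ≠ j → S.w i j 1 ∈ L := by
    intro i j hij
    rcases lt_or_gt_of_ne (fun e => hij (Fin.ext e) : i.val ≠ j.val) with h | h
    · exact hlt (j.val - i.val - 1) i j (by omega)
    · have h1 : S.w j i 1 ∈ L := hlt (i.val - j.val - 1) j i (by omega)
      rw [w_swap S hn hij.symm 1, w_eq_h_mul S hn hij.symm]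
      exact L.mul_mem (hh _ _ _ hij.symm) h1
  apply le_antisymm
  · unfold StSys.Wt
    rw [Subgroup.closure_le]
    rintro _ ⟨i, j, u, hij, rfl⟩
    rw [w_eq_h_mul S hn hij]
    exact L.mul_mem (hh _ _ _ hij) (hall1 i j hij)
  · rw [hL]
    refine sup_le (Ht_le_Wt S) ?_
    rw [Subgroup.closure_le]
    rintro _ ⟨i, j, hij, rfl⟩
    exact Subgroup.subset_closure ⟨i, j, 1, by intro e; rw [e] at hij; omega, rfl⟩

end A

end Cfsg.Agent.Lib.Helper6.StSL
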