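import Cfsg.Agent.Lib.Helper6.StSL.Defs
import Cfsg.Agent.Lib.Helper6.StSL.A2

/-! StSL farm (helper6), piece A6d (helper91). -/

set_option autoImplicit false

namespace Cfsg.Agent.Lib.Helper6.StSL

open Matrix
open scoped commutatorElement

variable {n : ℕ} {K : Type*} [Field K] {Γ : Type*} [Group Γ]

theorem exists_perm_hom (S : StSys n K Γ) (hn : 3 ≤ n) {φ : Γ →* SLn n K} (hφ : Compat S φ) :
    ∃ p : ↥S.Wt →* Equiv.Perm (Fin n), ∀ (g : ↥S.Wt) (π : Equiv.Perm (Fin n)) (v : Fin n → Kˣ),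
      IsMonMat (φ (g : Γ)) π v → p g = π := by
  classical
  have hex : ∀ g : ↥S.Wt, ∃ π : Equiv.Perm (Fin n), ∃ v : Fin n → Kˣ, IsMonMat (φ (g : Γ)) π v := by
    intro g
    obtain ⟨π, v, -, h⟩ := exists_mon hn hφ g.1 g.2
    exact ⟨π, v, h⟩
  choose f hf using hex
  have huniq : ∀ (g : ↥S.Wt) (π : Equiv.Perm (Fin n)) (v : Fin n → Kˣ),
      IsMonMat (φ (g : Γ)) π v → f g = π := by
    intro g π v h
    obtain ⟨v', hv'⟩ := hf g
    exact (IsMonMat.unique hv' h).1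
  refine ⟨MonoidHom.mk' f ?_, huniq⟩
  intro a b
  obtain ⟨va, hva⟩ := hf a
  obtain ⟨vb, hvb⟩ := hf b
  have h1 := IsMonMat.mul hva hvb
  rw [← map_mul] at h1
  exact huniq (a * b) _ _ h1

end Cfsg.Agent.Lib.Helper6.StSL
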