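import Cfsg.Agent.Lib.Helper6.StSL.Defs

set_option autoImplicit false
set_option linter.unusedSectionVars false

namespace Cfsg.Agent.Lib.Helper6.StSL

open Matrix

variable {n : ℕ} {K : Type*} [Field K] {Γ : Type*} [Group Γ]

namespace A7a

variable (S : StSys n K Γ)

theorem coe_mul' (A B : SLn n K) : ((A * B : SLn n K) : Matrix (Fin n) (Fin n) K) =
    (A : Matrix (Fin n) (Fin n) K) * (B : Matrix (Fin n) (Fin n) K) := rfl

theorem coe_one' : ((1 : SLn n K) : Matrix (Fin n) (Fin n) K) = 1 := rfl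

theorem x_zero' {i j : Fin n} (h : i ≠ j) : S.x i j 0 = 1 := by
  have := S.add i j h 0 0
  rw [add_zero] at this
  exact mul_eq_left.mp this

theorem x_inv' {i j : Fin n} (h : i ≠ j) (t : K) : (S.x i j t)⁻¹ = S.x i j (-t) := by
  have := S.add i j h t (-t)
  rw [add_neg_cancel, x_zero' S h] at this
  exact inv_eq_of_mul_eq_one_right this

/-- generators at distance `≥ k`, those at distance exactly `k` only in the rows `≥ r` -/
def gen (k r : ℕ) : Set Γ :=
  {g | ∃ (i j : Fin n) (t : K), i.val + k ≤ j.val ∧ (i.val + k < j.val ∨ r ≤ i.val) ∧ g = S.x i j t}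

/-- the subgroup generated by `gen k r` -/
def M (k r : ℕ) : Subgroup Γ := Subgroup.closure (gen S k r)

theorem inv_mem_gen {k r : ℕ} (hk : 1 ≤ k) {y : Γ} (hy : y ∈ gen S k r) : y⁻¹ ∈ gen S k r := by
  obtain ⟨i, j, t, h1, h2, rfl⟩ := hy
  have hij : i ≠ j := by
    intro h; rw [h] at h1; omega
  exact ⟨i, j, -t, h1, h2, x_inv' S hij t⟩

theorem x_mem_M {k r : ℕ} {i j : Fin n} (t : K) (h1 : i.val + k ≤ j.val)
    (h2 : i.val + k < j.val ∨ r ≤ i.val) : S.x i j t ∈ M S k r :=
  Subgroup.subset_closure ⟨i, j, t, h1, h2, rfl⟩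

/-- induction over `M k r`, multiplying by generators on the right -/
theorem M_induction {k r : ℕ} (hk : 1 ≤ k) {p : Γ → Prop} (one : p 1)
    (mul : ∀ x, ∀ y ∈ gen S k r, p x → p (x * y)) : ∀ g ∈ M S k r, p g := by
  intro g hg
  induction hg using Subgroup.closure_induction_right with
  | one => exact one
  | mul_right x _ y hy ih => exact mul x y hy ih
  | mul_inv_cancel x _ y hy ih => exact mul x y⁻¹ (inv_mem_gen S hk hy) ih

/-- shape of the matrices -/
theorem shape {φ : Γ →* SLn n K} (hφ : Compat S φ) {k r : ℕ} (hk : 1 ≤ k) :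
    ∀ g ∈ M S k r,
      (∀ a b : Fin n, b.val < a.val + k →
        (φ g : Matrix (Fin n) (Fin n) K) a b = if a = b then 1 else 0) ∧
      (∀ a b : Fin n, a.val + k = b.val → a.val < r →
        (φ g : Matrix (Fin n) (Fin n) K) a b = 0) := by
  refine M_induction S hk (p := fun g => (∀ a b : Fin n, b.val < a.val + k →
        (φ g : Matrix (Fin n) (Fin n) K) a b = if a = b then 1 else 0) ∧
      (∀ a b : Fin n, a.val + k = b.val → a.val < r →
        (φ g : Matrix (Fin n) (Fin n) K) a b = 0)) ?_ ?_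
  · constructor
    · intro a b _
      rw [map_one, coe_one', Matrix.one_apply]
    · intro a b hab _
      rw [map_one, coe_one', Matrix.one_apply, if_neg]
      intro h; rw [h] at hab; omega
  · rintro x _ ⟨i, j, t, h1, h2, rfl⟩ ⟨ih1, ih2⟩
    have hij : i ≠ j := by
      intro h; rw [h] at h1; omega
    have hmul : (φ (x * S.x i j t) : Matrix (Fin n) (Fin n) K) =
        (φ x : Matrix (Fin n) (Fin n) K) * Matrix.transvection i j t := by
      rw [map_mul, hφ i j hij, coe_mul', tv_coe hij]
    constructor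
    · intro a b hab
      rw [hmul]
      by_cases hb : b = j
      · subst hb
        rw [Matrix.mul_transvection_apply_same, ih1 a b hab, ih1 a i (by omega)]
        have : a ≠ i := by
          intro h; rw [h] at hab; omega
        rw [if_neg this, mul_zero, add_zero]
      · rw [Matrix.mul_transvection_apply_of_ne _ _ _ _ hb, ih1 a b hab]
    · intro a b hab har
      rw [hmul]
      by_cases hb : b = j
      · subst hb
        rw [Matrix.mul_transvection_apply_same, ih2 a b hab har, ih1 a i (by omega)]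
        have : a ≠ i := by
          intro h; rw [h] at hab har; omega
        rw [if_neg this, mul_zero, add_zero]
      · rw [Matrix.mul_transvection_apply_of_ne _ _ _ _ hb, ih2 a b hab har]

/-- `M k (r+1)` is normalised by the root subgroup `(r, r+k)` -/
theorem conj_mem {k r : ℕ} (hk : 1 ≤ k) {a b : Fin n} (ha : a.val = r) (hb : b.val = r + k)
    (v : K) : ∀ m ∈ M S k (r + 1), S.x a b v * m * (S.x a b v)⁻¹ ∈ M S k (r + 1) := by
  have hab : a ≠ b := by
    intro h; rw [h] at ha; omega
  have hle : M S k (r + 1) ≤ (M S k (r + 1)).comap (MulAut.conj (S.x a b v)).toMonoidHom := by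
    unfold M
    rw [Subgroup.closure_le]
    rintro _ ⟨i, j, u, h1, h2, rfl⟩
    show S.x a b v * S.x i j u * (S.x a b v)⁻¹ ∈ M S k (r + 1)
    have hij : i ≠ j := by
      intro h; rw [h] at h1; omega
    have hy : S.x i j u ∈ M S k (r + 1) := x_mem_M S u h1 h2
    by_cases hbi : b = i
    · subst hbi
      have haj : a ≠ j := by
        intro h; rw [h] at ha; omega
      have h3 := S.mulc a b j hab hij haj v u
      have h4 : S.x a b v * S.x b j u * (S.x a b v)⁻¹ = S.x a j (v * u) * S.x b j u := by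
        rw [← h3]; group
      rw [h4]
      exact (M S k (r + 1)).mul_mem (x_mem_M S _ (by omega) (Or.inl (by omega))) hy
    · by_cases haj : a = j
      · subst haj
        have hib : i ≠ b := fun h => hbi h.symm
        have h3 := S.mulc i a b hij hab hib u v
        have h4 : S.x a b v * S.x i a u * (S.x a b v)⁻¹ = (S.x i b (u * v))⁻¹ * S.x i a u := by
          rw [← h3]; group
        rw [h4]
        exact (M S k (r + 1)).mul_mem
          ((M S k (r + 1)).inv_mem (x_mem_M S _ (by omega) (Or.inl (by omega)))) hy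
      · have h3 := S.comm a b i j hab hij hbi haj v u
        rw [h3, mul_inv_cancel_right]
        exact hy
  intro m hm
  exact hle hm

/-- splitting off the root subgroup `(r, r+k)` -/
theorem decomp {k r : ℕ} (hk : 1 ≤ k) {a b : Fin n} (ha : a.val = r) (hb : b.val = r + k) :
    ∀ g ∈ M S k r, ∃ t : K, ∃ m ∈ M S k (r + 1), g = S.x a b t * m := by
  have hab : a ≠ b := by
    intro h; rw [h] at ha; omega
  refine M_induction S hk (p := fun g => ∃ t : K, ∃ m ∈ M S k (r + 1), g = S.x a b t * m) ?_ ?_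
  · exact ⟨0, 1, Subgroup.one_mem _, by rw [x_zero' S hab, one_mul]⟩
  · rintro x _ ⟨i, j, u, h1, h2, rfl⟩ ⟨t, m, hm, rfl⟩
    by_cases h3 : i.val + k < j.val ∨ r + 1 ≤ i.val
    · exact ⟨t, m * S.x i j u, (M S k (r + 1)).mul_mem hm (x_mem_M S u h1 h3), by rw [mul_assoc]⟩
    · have hi : i = a := Fin.ext (by omega)
      have hj : j = b := Fin.ext (by omega)
      subst hi hj
      refine ⟨t + u, S.x i j (-u) * m * (S.x i j (-u))⁻¹, conj_mem S hk ha hb (-u) m hm, ?_⟩
      rw [← S.add i j hab t u, ← x_inv' S hab u]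
      group

theorem M_step {φ : Γ →* SLn n K} (hφ : Compat S φ) {k : ℕ} (hk : 1 ≤ k) (g : Γ)
    (h0 : ∀ i j : Fin n, i.val + k = j.val → (φ g : Matrix (Fin n) (Fin n) K) i j = 0) (r : ℕ)
    (hg : g ∈ M S k r) : g ∈ M S k (r + 1) := by
  by_cases hr : r + k < n
  · set a : Fin n := ⟨r, by omega⟩ with ha
    set b : Fin n := ⟨r + k, hr⟩ with hb
    have hab : a ≠ b := by
      intro h
      have := congrArg Fin.val h
      simp only [ha, hb] at this
      omega
    obtain ⟨t, m, hm, rfl⟩ := decomp S hk (a := a) (b := b) rfl rfl g hg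
    obtain ⟨s1, s2⟩ := shape S hφ hk m hm
    have h1 := h0 a b rfl
    rw [map_mul, hφ a b hab, coe_mul', tv_coe hab,
      Matrix.transvection_mul_apply_same, s2 a b rfl (Nat.lt_succ_self r),
      s1 b b (by omega), if_pos rfl, zero_add, mul_one] at h1
    rw [h1, x_zero' S hab, one_mul]
    exact hm
  · have hle : M S k r ≤ M S k (r + 1) := by
      apply Subgroup.closure_mono
      rintro _ ⟨i, j, t, h1, h2, rfl⟩
      refine ⟨i, j, t, h1, ?_, rfl⟩
      have := j.isLt
      omega
    exact hle hg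

theorem Uk_eq_M (k : ℕ) : S.Uk k = M S k 0 := by
  unfold StSys.Uk M gen
  congr 1
  ext g
  constructor
  · rintro ⟨i, j, t, h1, rfl⟩
    exact ⟨i, j, t, h1, Or.inr (Nat.zero_le _), rfl⟩
  · rintro ⟨i, j, t, h1, _, rfl⟩
    exact ⟨i, j, t, h1, rfl⟩

theorem M_le_Uk (k : ℕ) : M S k n ≤ S.Uk (k + 1) := by
  apply Subgroup.closure_mono
  rintro _ ⟨i, j, t, h1, h2, rfl⟩
  refine ⟨i, j, t, ?_, rfl⟩
  have := i.isLt
  omega

end A7a

theorem Uk_step (S : StSys n K Γ) {φ : Γ →* SLn n K} (hφ : Compat S φ) (k : ℕ) (hk : 1 ≤ k) :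
    ∀ g ∈ S.Uk k, (∀ i j : Fin n, i.val + k = j.val → (φ g : Matrix (Fin n) (Fin n) K) i j = 0) →
      g ∈ S.Uk (k + 1) := by
  intro g hg h0
  rw [A7a.Uk_eq_M] at hg
  have key : ∀ r : ℕ, g ∈ A7a.M S k r := by
    intro r
    induction r with
    | zero => exact hg
    | succ r ih => exact A7a.M_step S hφ hk g h0 r ih
  exact A7a.M_le_Uk S k (key n)

end Cfsg.Agent.Lib.Helper6.StSL
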