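import Cfsg.Agent.Lib.Helper6.StSL.Defs
import Cfsg.Agent.Lib.Helper6.StSL.A7a

set_option autoImplicit false
set_option linter.unusedSectionVars false

namespace Cfsg.Agent.Lib.Helper6.StSL

open Matrix

variable {n : ℕ} {K : Type*} [Field K] {Γ : Type*} [Group Γ]

theorem Ut_inj (S : StSys n K Γ) {φ : Γ →* SLn n K} (hφ : Compat S φ) :
    ∀ g ∈ S.Ut, φ g = 1 → g = 1 := by
  intro g hg h1
  have key : ∀ k : ℕ, g ∈ S.Uk (k + 1) := by
    intro k
    induction k with
    | zero => exact hg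
    | succ k ih =>
      apply Uk_step S hφ (k + 1) (by omega) g ih
      intro i j hij
      rw [h1, A7a.coe_one', Matrix.one_apply, if_neg]
      intro h; rw [h] at hij; omega
  have hbot : S.Uk (n + 1) = ⊥ := by
    unfold StSys.Uk
    rw [Subgroup.closure_eq_bot_iff]
    rintro _ ⟨i, j, t, h2, rfl⟩
    have := j.isLt
    omega
  have := key n
  rw [hbot, Subgroup.mem_bot] at this
  exact this

theorem Ut_upper (S : StSys n K Γ) {φ : Γ →* SLn n K} (hφ : Compat S φ) :
    ∀ g ∈ S.Ut, (∀ a, (φ g : Matrix (Fin n) (Fin n) K) a a = 1) ∧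
      ∀ a b, b < a → (φ g : Matrix (Fin n) (Fin n) K) a b = 0 := by
  intro g hg
  have hg' : g ∈ A7a.M S 1 0 := by
    rw [← A7a.Uk_eq_M]; exact hg
  obtain ⟨s1, _⟩ := A7a.shape S hφ (le_refl 1) g hg'
  constructor
  · intro a
    rw [s1 a a (by omega), if_pos rfl]
  · intro a b hab
    have hab' : b.val < a.val := hab
    rw [s1 a b (by omega), if_neg]
    intro h; rw [h] at hab'; omega

end Cfsg.Agent.Lib.Helper6.StSL
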