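import Cfsg.Agent.Lib.Helper6.StSL.Defs
import Cfsg.Agent.Lib.Helper6.StSL.A1a
import Cfsg.Agent.Lib.Helper6.StSL.A1b

/-! StSL farm, piece A8a: `Γ` is generated by `Ut` and the simple reflections -/

set_option autoImplicit false

namespace Cfsg.Agent.Lib.Helper6.StSL

open Matrix
open scoped commutatorElement

universe u

variable {n : ℕ} {K : Type*} [Field K] {Γ : Type*} [Group Γ]

theorem closure_Ut_s (S : StSys n K Γ) (hn : 3 ≤ n) (hgen : Subgroup.closure S.gens = ⊤) :
    S.Ut ⊔ Subgroup.closure {g | ∃ (i j : Fin n), i.val + 1 = j.val ∧ g = S.w i j 1} = ⊤ := by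
  set L : Subgroup Γ :=
    S.Ut ⊔ Subgroup.closure {g | ∃ (i j : Fin n), i.val + 1 = j.val ∧ g = S.w i j 1} with hL
  have hup : ∀ (i j : Fin n) (t : K), i.val + 1 ≤ j.val → S.x i j t ∈ L := by
    intro i j t hij
    exact (le_sup_left : S.Ut ≤ L) (Subgroup.subset_closure ⟨i, j, t, hij, rfl⟩)
  have hs : ∀ (i j : Fin n), i.val + 1 = j.val → S.w i j 1 ∈ L := by
    intro i j hij
    exact (le_sup_right : _ ≤ L) (Subgroup.subset_closure ⟨i, j, hij, rfl⟩)
  have hbase : ∀ (i j : Fin n) (t : K), j.val + 1 = i.val → S.x i j t ∈ L := by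
    intro i j t hij
    have hne : j ≠ i := by
      intro e
      rw [e] at hij
      omega
    have h1 := w_conj_ij S hn hne 1 (-t)
    have h2 : S.x i j (-((((1 : Kˣ)⁻¹ : Kˣ) : K) ^ 2 * -t)) = S.x i j t := by
      congr 1
      simp
    rw [h2] at h1
    rw [← h1]
    exact L.mul_mem (L.mul_mem (hs j i hij) (hup j i _ hij.le)) (L.inv_mem (hs j i hij))
  have hlow : ∀ (d : ℕ) (i j : Fin n) (t : K), j.val + d + 1 = i.val → S.x i j t ∈ L := by
    intro d
    induction d with
    | zero =>
      intro i j t hij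
      exact hbase i j t (by omega)
    | succ d ih =>
      intro i j t hij
      have hm : i.val - 1 < n := by omega
      set m : Fin n := ⟨i.val - 1, hm⟩ with hmdef
      have hmv : m.val = i.val - 1 := rfl
      have him : i ≠ m := by
        intro e
        have := congrArg Fin.val e
        omega
      have hmj : m ≠ j := by
        intro e
        have := congrArg Fin.val e
        omega
      have hij' : i ≠ j := by
        intro e
        have := congrArg Fin.val e
        omega
      have h1 := S.mulc i m j him hmj hij' t 1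
      rw [mul_one] at h1
      rw [← h1]
      have h2 : S.x i m t ∈ L := hbase i m t (by omega)
      have h3 : S.x m j 1 ∈ L := ih m j 1 (by omega)
      exact L.mul_mem (L.mul_mem (L.mul_mem h2 h3) (L.inv_mem h2)) (L.inv_mem h3)
  rw [eq_top_iff, ← hgen, Subgroup.closure_le]
  rintro g ⟨i, j, t, hij, rfl⟩
  rcases lt_or_gt_of_ne (fun e => hij (Fin.ext e) : i.val ≠ j.val) with h | h
  · exact hup i j t h
  · exact hlow (i.val - j.val - 1) i j t (by omega)

end Cfsg.Agent.Lib.Helper6.StSL
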