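import Cfsg.Agent.Lib.Helper6.StSL.A1a
import Cfsg.Agent.Lib.Helper6.StSL.A2

/-! StSL piece A8b (helper15): `Ut = Ui * X_ij` with `w_ij Ui w_ij⁻¹ ≤ Ut`. -/

set_option autoImplicit false

namespace Cfsg.Agent.Lib.Helper6.StSL

open Matrix

variable {n : ℕ} {K : Type*} [Field K] {Γ : Type*} [Group Γ]

namespace A8b

/-- the subgroup generated by the positive root elements other than `x_ij` -/
def Ui (S : StSys n K Γ) (i j : Fin n) : Subgroup Γ :=
  Subgroup.closure {g | ∃ (k l : Fin n) (t : K), k < l ∧ ¬ (k = i ∧ l = j) ∧ g = S.x k l t}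

theorem x_mem_Ui (S : StSys n K Γ) {i j k l : Fin n} (hkl : k < l) (h : ¬ (k = i ∧ l = j)) (t : K) :
    S.x k l t ∈ Ui S i j :=
  Subgroup.subset_closure ⟨k, l, t, hkl, h, rfl⟩

theorem x_mem_Ut (S : StSys n K Γ) {k l : Fin n} (hkl : k < l) (t : K) : S.x k l t ∈ S.Ut :=
  Subgroup.subset_closure ⟨k, l, t, by have := Fin.lt_def.mp hkl; omega, rfl⟩

theorem swap_lt {i j k l : Fin n} (hij : i.val + 1 = j.val) (hkl : k < l) (h : ¬ (k = i ∧ l = j)) :
    Equiv.swap i j k < Equiv.swap i j l := by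
  have hkl' := Fin.lt_def.mp hkl
  by_cases hki : k = i
  · subst hki
    have hlj : l ≠ j := fun e => h ⟨rfl, e⟩
    have hlj' : l.val ≠ j.val := fun e => hlj (Fin.ext e)
    have hlk : l ≠ k := fun e => by rw [e] at hkl'; omega
    rw [Equiv.swap_apply_left, Equiv.swap_apply_of_ne_of_ne hlk hlj, Fin.lt_def]
    omega
  · have hki' : k.val ≠ i.val := fun e => hki (Fin.ext e)
    by_cases hkj : k = j
    · subst hkj
      have hli : l ≠ i := fun e => by rw [e] at hkl'; omega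
      have hlk : l ≠ k := fun e => by rw [e] at hkl'; omega
      rw [Equiv.swap_apply_right, Equiv.swap_apply_of_ne_of_ne hli hlk, Fin.lt_def]
      omega
    · rw [Equiv.swap_apply_of_ne_of_ne hki hkj]
      by_cases hli : l = i
      · subst hli
        rw [Equiv.swap_apply_left, Fin.lt_def]; omega
      · by_cases hlj : l = j
        · subst hlj
          rw [Equiv.swap_apply_right, Fin.lt_def]; omega
        · rw [Equiv.swap_apply_of_ne_of_ne hli hlj]; exact hkl

theorem conj_Ui (S : StSys n K Γ) (hn : 3 ≤ n) {i j : Fin n} (hij : i.val + 1 = j.val) (ε : Kˣ) :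
    ∀ g ∈ Ui S i j, S.w i j ε * g * (S.w i j ε)⁻¹ ∈ S.Ut := by
  have hne : i ≠ j := fun e => by rw [e] at hij; omega
  intro g hg
  induction hg using Subgroup.closure_induction with
  | mem x hx =>
    obtain ⟨k, l, t, hkl, h, rfl⟩ := hx
    rw [mon_w S hn hne ε k l (ne_of_lt hkl) t]
    exact x_mem_Ut S (swap_lt hij hkl h) _
  | one => simp
  | mul x y _ _ hx hy =>
    have : S.w i j ε * (x * y) * (S.w i j ε)⁻¹
        = (S.w i j ε * x * (S.w i j ε)⁻¹) * (S.w i j ε * y * (S.w i j ε)⁻¹) := by group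
    rw [this]; exact mul_mem hx hy
  | inv x _ hx =>
    have : S.w i j ε * x⁻¹ * (S.w i j ε)⁻¹ = (S.w i j ε * x * (S.w i j ε)⁻¹)⁻¹ := by group
    rw [this]; exact inv_mem hx

theorem step (S : StSys n K Γ) {i j k l : Fin n} (hij : i.val + 1 = j.val) (hkl : k < l)
    (t t' : K) : ∃ g' ∈ Ui S i j, ∃ t'' : K, S.x i j t * S.x k l t' = g' * S.x i j t'' := by
  have hne : i ≠ j := fun e => by rw [e] at hij; omega
  have hkl' := Fin.lt_def.mp hkl
  by_cases h : k = i ∧ l = j
  · obtain ⟨rfl, rfl⟩ := h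
    exact ⟨1, one_mem _, t + t', by rw [S.add _ _ hne, one_mul]⟩
  · by_cases hjk : j = k
    · subst hjk
      have hil : i ≠ l := fun e => by rw [← e] at hkl'; omega
      have hil' : i < l := by rw [Fin.lt_def]; omega
      have hjl : j ≠ l := ne_of_lt hkl
      refine ⟨S.x i l (t * t') * S.x j l t', mul_mem (x_mem_Ui S hil' ?_ _) (x_mem_Ui S hkl h _),
        t, ?_⟩
      · rintro ⟨-, e⟩; exact hjl e.symm
      · rw [← S.mulc i j l hne hjl hil t t']; group
    · by_cases hil : i = l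
      · subst hil
        have hkj : k ≠ j := fun e => by rw [e] at hkl'; omega
        have hkj' : k < j := by rw [Fin.lt_def]; omega
        have hki : k ≠ i := ne_of_lt hkl
        refine ⟨(S.x k j (t' * t))⁻¹ * S.x k i t',
          mul_mem (inv_mem (x_mem_Ui S hkj' ?_ _)) (x_mem_Ui S hkl h _), t, ?_⟩
        · rintro ⟨e, -⟩; exact hki e
        · rw [← S.mulc k i j hki hne hkj t' t]; group
      · exact ⟨S.x k l t', x_mem_Ui S hkl h _, t, S.comm i j k l hne (ne_of_lt hkl) hjk hil t t'⟩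

theorem decomp (S : StSys n K Γ) {i j : Fin n} (hij : i.val + 1 = j.val) :
    ∀ g ∈ S.Ut, ∃ g' ∈ Ui S i j, ∃ t : K, g = g' * S.x i j t := by
  have hne : i ≠ j := fun e => by rw [e] at hij; omega
  intro g hg
  induction hg using Subgroup.closure_induction_right with
  | one => exact ⟨1, one_mem _, 0, by rw [x_zero S hne, one_mul]⟩
  | mul_right x _ y hy hx =>
    obtain ⟨g', hg', t, rfl⟩ := hx
    obtain ⟨k, l, t', hkl, rfl⟩ := hy
    have hkl' : k < l := by rw [Fin.lt_def]; omega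
    obtain ⟨g'', hg'', t'', e⟩ := step S hij hkl' t t'
    exact ⟨g' * g'', mul_mem hg' hg'', t'', by rw [mul_assoc, e, mul_assoc]⟩
  | mul_inv_cancel x _ y hy hx =>
    obtain ⟨g', hg', t, rfl⟩ := hx
    obtain ⟨k, l, t', hkl, rfl⟩ := hy
    have hkl' : k < l := by rw [Fin.lt_def]; omega
    obtain ⟨g'', hg'', t'', e⟩ := step S hij hkl' t (-t')
    exact ⟨g' * g'', mul_mem hg' hg'', t'', by
      rw [x_inv S (ne_of_lt hkl'), mul_assoc, e, mul_assoc]⟩

end A8b

theorem Ut_decomp (S : StSys n K Γ) (hn : 3 ≤ n) {i j : Fin n} (hij : i.val + 1 = j.val) (ε : Kˣ) :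
    ∀ g ∈ S.Ut, ∃ (g' : Γ) (t : K), g = g' * S.x i j t ∧ S.w i j ε * g' * (S.w i j ε)⁻¹ ∈ S.Ut := by
  intro g hg
  obtain ⟨g', hg', t, e⟩ := A8b.decomp S hij g hg
  exact ⟨g', t, e, A8b.conj_Ui S hn hij ε g' hg'⟩

end Cfsg.Agent.Lib.Helper6.StSL
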