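import Cfsg.Agent.Lib.Helper6.StSL.A1a
import Cfsg.Agent.Lib.Helper6.StSL.A1b
import Cfsg.Agent.Lib.Helper6.StSL.A2
import Cfsg.Agent.Lib.Helper6.StSL.A8b

/-! StSL piece A8c (helper15): `s * (Ut Wt Ut) ⊆ Ut Wt Ut`. -/

set_option autoImplicit false

namespace Cfsg.Agent.Lib.Helper6.StSL

open Matrix

variable {n : ℕ} {K : Type*} [Field K] {Γ : Type*} [Group Γ]

namespace A8c

theorem w_mem_Wt (S : StSys n K Γ) {i j : Fin n} (h : i ≠ j) (u : Kˣ) : S.w i j u ∈ S.Wt :=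
  Subgroup.subset_closure ⟨i, j, u, h, rfl⟩

/-- `g⁻¹ x_ij(t) g` is a root element for the pulled back pair. -/
theorem inv_conj {S : StSys n K Γ} {g : Γ} {π : Equiv.Perm (Fin n)} {v : Fin n → Kˣ}
    (h : S.Mon g π v) {i j : Fin n} (hij : i ≠ j) (t : K) :
    ∃ t' : K, S.x i j t * g = g * S.x (π⁻¹ i) (π⁻¹ j) t' := by
  have h1 := (Mon.inv h) i j hij t
  exact ⟨_, by rw [← h1]; group⟩

end A8c

theorem s_mul_bruhat (S : StSys n K Γ) (hn : 3 ≤ n) {φ : Γ →* SLn n K} (hφ : Compat S φ)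
    {i j : Fin n} (hij : i.val + 1 = j.val) (ε : Kˣ) (u w u' : Γ) (hu : u ∈ S.Ut) (hw : w ∈ S.Wt)
    (hu' : u' ∈ S.Ut) :
    ∃ u₁ ∈ S.Ut, ∃ w₁ ∈ S.Wt, ∃ u₂ ∈ S.Ut, S.w i j ε * (u * w * u') = u₁ * w₁ * u₂ := by
  have hne : i ≠ j := fun e => by rw [e] at hij; omega
  have hlt : i < j := by rw [Fin.lt_def]; omega
  obtain ⟨g', t, rfl, hg'⟩ := Ut_decomp S hn hij ε u hu
  obtain ⟨π, v, hM, -⟩ := exists_mon hn hφ w hw
  have hsW := A8c.w_mem_Wt S hne ε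
  have hab : π⁻¹ i ≠ π⁻¹ j := fun e => hne (π⁻¹.injective e)
  by_cases ht : t = 0
  · subst ht
    refine ⟨_, hg', S.w i j ε * w, mul_mem hsW hw, u', hu', ?_⟩
    rw [x_zero S hne]; group
  rcases lt_or_gt_of_ne hab with hlt' | hlt'
  · obtain ⟨t', e⟩ := A8c.inv_conj hM hne t
    refine ⟨_, hg', S.w i j ε * w, mul_mem hsW hw, S.x (π⁻¹ i) (π⁻¹ j) t' * u',
      mul_mem (A8b.x_mem_Ut S hlt' _) hu', ?_⟩
    calc S.w i j ε * (g' * S.x i j t * w * u')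
        = S.w i j ε * g' * (S.x i j t * w) * u' := by group
      _ = S.w i j ε * g' * (w * S.x (π⁻¹ i) (π⁻¹ j) t') * u' := by rw [e]
      _ = _ := by group
  · -- the bad case
    let c : Kˣ := ε ^ 2 * (Units.mk0 t ht)⁻¹
    have hc : -(((ε⁻¹ : Kˣ) : K) ^ 2 * t) = -((c⁻¹ : Kˣ) : K) := by
      have : c⁻¹ = (ε⁻¹) ^ 2 * Units.mk0 t ht := by
        simp only [c, mul_inv, inv_inv, inv_pow]
      rw [this, Units.val_mul, Units.val_pow_eq_pow_val, Units.val_mk0]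
    have h1 : S.w i j ε * S.x i j t = S.x j i (-((c⁻¹ : Kˣ) : K)) * S.w i j ε := by
      rw [← hc, ← w_conj_ij S hn hne ε t]; group
    have h2 : S.x j i (-((c⁻¹ : Kˣ) : K)) = S.x i j (-(c : K)) * S.w i j c * S.x i j (-(c : K)) := by
      rw [← x_inv S hne]
      unfold StSys.w
      group
    have hM2 := Mon.mul (mon_w S hn hne ε) hM
    obtain ⟨t', e⟩ := A8c.inv_conj hM2 hne (-(c : K))
    have e1 : (Equiv.swap i j * π)⁻¹ i = π⁻¹ j := by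
      rw [_root_.mul_inv_rev, Equiv.Perm.mul_apply, Equiv.swap_inv, Equiv.swap_apply_left]
    have e2 : (Equiv.swap i j * π)⁻¹ j = π⁻¹ i := by
      rw [_root_.mul_inv_rev, Equiv.Perm.mul_apply, Equiv.swap_inv, Equiv.swap_apply_right]
    rw [e1, e2] at e
    refine ⟨S.w i j ε * g' * (S.w i j ε)⁻¹ * S.x i j (-(c : K)),
      mul_mem hg' (A8b.x_mem_Ut S hlt _), S.w i j c * (S.w i j ε * w),
      mul_mem (A8c.w_mem_Wt S hne c) (mul_mem hsW hw), S.x (π⁻¹ j) (π⁻¹ i) t' * u',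
      mul_mem (A8b.x_mem_Ut S hlt' _) hu', ?_⟩
    calc S.w i j ε * (g' * S.x i j t * w * u')
        = S.w i j ε * g' * (S.w i j ε)⁻¹ * (S.w i j ε * S.x i j t) * w * u' := by group
      _ = S.w i j ε * g' * (S.w i j ε)⁻¹ * (S.x i j (-(c : K)) * S.w i j c * S.x i j (-(c : K))
            * S.w i j ε) * w * u' := by rw [h1, h2]
      _ = S.w i j ε * g' * (S.w i j ε)⁻¹ * S.x i j (-(c : K)) * S.w i j c
            * (S.x i j (-(c : K)) * (S.w i j ε * w)) * u' := by group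
      _ = S.w i j ε * g' * (S.w i j ε)⁻¹ * S.x i j (-(c : K)) * S.w i j c
            * ((S.w i j ε * w) * S.x (π⁻¹ j) (π⁻¹ i) t') * u' := by rw [e]
      _ = _ := by group

end Cfsg.Agent.Lib.Helper6.StSL
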