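import Cfsg.Agent.Lib.Helper6.StSL.A4
import Cfsg.Agent.Lib.Helper6.StSL.A8a
import Cfsg.Agent.Lib.Helper6.StSL.A8c

/-! StSL piece A8 (helper15): the Bruhat decomposition `Γ = Ut Wt Ut`. -/

set_option autoImplicit false

namespace Cfsg.Agent.Lib.Helper6.StSL

open Matrix

variable {n : ℕ} {K : Type*} [Field K] {Γ : Type*} [Group Γ]

namespace A8

/-- `g ∈ Ut Wt Ut` -/
def P (S : StSys n K Γ) (g : Γ) : Prop := ∃ u ∈ S.Ut, ∃ w ∈ S.Wt, ∃ u' ∈ S.Ut, g = u * w * u'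

/-- the elements which, with their inverse, stabilise `Ut Wt Ut` by left multiplication -/
def T (S : StSys n K Γ) : Subgroup Γ where
  carrier := {x | ∀ g, P S g → P S (x * g) ∧ P S (x⁻¹ * g)}
  mul_mem' := by
    intro x y hx hy g hg
    refine ⟨?_, ?_⟩
    · rw [mul_assoc]; exact (hx _ (hy g hg).1).1
    · rw [_root_.mul_inv_rev, mul_assoc]; exact (hy _ (hx g hg).2).2
  one_mem' := by
    intro g hg
    simpa using hg
  inv_mem' := by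
    intro x hx g hg
    refine ⟨(hx g hg).2, ?_⟩
    rw [inv_inv]; exact (hx g hg).1

end A8

theorem bruhat [Finite K] (S : StSys n K Γ) (hn : 3 ≤ n) {φ : Γ →* SLn n K} (hφ : Compat S φ)
    (hgen : Subgroup.closure S.gens = ⊤) :
    ∀ g : Γ, ∃ u ∈ S.Ut, ∃ w ∈ S.Wt, ∃ u' ∈ S.Ut, g = u * w * u' := by
  have h1 : S.Ut ≤ A8.T S := by
    intro x hx g hg
    obtain ⟨u, hu, w, hw, u', hu', rfl⟩ := hg
    exact ⟨⟨x * u, mul_mem hx hu, w, hw, u', hu', by group⟩,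
      ⟨x⁻¹ * u, mul_mem (inv_mem hx) hu, w, hw, u', hu', by group⟩⟩
  have h2 : Subgroup.closure {g | ∃ (i j : Fin n), i.val + 1 = j.val ∧ g = S.w i j 1} ≤ A8.T S := by
    rw [Subgroup.closure_le]
    rintro x ⟨i, j, hij, rfl⟩ g hg
    have hne : i ≠ j := fun e => by rw [e] at hij; omega
    obtain ⟨u, hu, w, hw, u', hu', rfl⟩ := hg
    refine ⟨?_, ?_⟩
    · obtain ⟨u₁, hu₁, w₁, hw₁, u₂, hu₂, e⟩ := s_mul_bruhat S hn hφ hij 1 u w u' hu hw hu'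
      exact ⟨u₁, hu₁, w₁, hw₁, u₂, hu₂, e⟩
    · rw [w_inv S hn hne]
      obtain ⟨u₁, hu₁, w₁, hw₁, u₂, hu₂, e⟩ := s_mul_bruhat S hn hφ hij (-1) u w u' hu hw hu'
      exact ⟨u₁, hu₁, w₁, hw₁, u₂, hu₂, e⟩
  have h3 : A8.T S = ⊤ := by
    rw [eq_top_iff, ← closure_Ut_s S hn hgen]
    exact sup_le h1 h2
  intro g
  have hg : g ∈ A8.T S := by rw [h3]; trivial
  have := (hg 1 ⟨1, one_mem _, 1, one_mem _, 1, one_mem _, by group⟩).1
  rwa [mul_one] at this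

end Cfsg.Agent.Lib.Helper6.StSL
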