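import Cfsg.Agent.Lib.Helper6.StSL.Defs

/-! StSL farm (helper6), piece ARITH. -/

set_option autoImplicit false

namespace Cfsg.Agent.Lib.Helper6.StSL

open Matrix

variable {n : ℕ} {K : Type*} [Field K]

theorem ARITH.sq_eq_one_aux {x : K} (h : x ^ 2 = 1) : x = 1 ∨ x = -1 := by
  have h1 : (x - 1) * (x + 1) = 0 := by
    have : (x - 1) * (x + 1) = x ^ 2 - 1 := by ring
    rw [this, h, sub_self]
  rcases mul_eq_zero.1 h1 with h2 | h2
  · exact Or.inl (sub_eq_zero.1 h2)
  · exact Or.inr (eq_neg_of_add_eq_zero_left h2)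

theorem exists_cube_ne [Fintype K] (h2 : Fintype.card K ≠ 2) (h4 : Fintype.card K ≠ 4) :
    ∃ a : Kˣ, a ^ 3 ≠ 1 := by
  classical
  by_contra hcon
  push Not at hcon
  obtain ⟨g, hg⟩ := IsCyclic.exists_generator (α := Kˣ)
  have h1 : orderOf g = Fintype.card Kˣ := by
    rw [orderOf_eq_card_of_forall_mem_zpowers hg, Nat.card_eq_fintype_card]
  have h3 : orderOf g ∣ 3 := orderOf_dvd_of_pow_eq_one (hcon g)
  rw [h1, Fintype.card_units] at h3
  have h5 : Fintype.card K - 1 = 1 ∨ Fintype.card K - 1 = 3 :=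
    (Nat.dvd_prime Nat.prime_three).1 h3
  have h6 : 1 < Fintype.card K := Fintype.one_lt_card
  omega

theorem two_ne_or_exists_sq_ne [Fintype K] (h2 : Fintype.card K ≠ 2) :
    (2 : K) ≠ 0 ∨ ∃ a : Kˣ, a ^ 2 ≠ 1 := by
  classical
  by_cases h : (2 : K) = 0
  · right
    -- there is a unit `a ≠ 1`
    have h6 : 1 < Fintype.card K := Fintype.one_lt_card
    have hc : 1 < Fintype.card Kˣ := by
      rw [Fintype.card_units]
      omega
    obtain ⟨a, ha⟩ := Fintype.exists_ne_of_one_lt_card hc (1 : Kˣ)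
    refine ⟨a, fun hsq => ha ?_⟩
    have h1 : ((a : K) - 1) ^ 2 = 0 := by
      have h3 : (a : K) ^ 2 = 1 := by
        have := congrArg Units.val hsq
        simpa using this
      have : ((a : K) - 1) ^ 2 = (a : K) ^ 2 + 1 - 2 * (a : K) := by ring
      rw [this, h3, h]
      have : (1 : K) + 1 = 2 := by norm_num
      rw [this, h]
      ring
    have h3 : (a : K) - 1 = 0 := by
      exact pow_eq_zero_iff (two_ne_zero) |>.1 h1
    exact Units.ext (by simpa using sub_eq_zero.1 h3)
  · exact Or.inl h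

theorem sl2_perfect [Fintype K] (h : 4 ≤ Fintype.card K) : commutator (SLn 2 K) = ⊤ := by
  classical
  obtain ⟨a, ha0, ha1⟩ : ∃ a : K, a ≠ 0 ∧ a ^ 2 ≠ 1 := by
    by_contra hcon
    push Not at hcon
    have h1 : ∀ x : K, x ∈ ({0, 1, -1} : Finset K) := by
      intro x
      by_cases hx : x = 0
      · simp [hx]
      · have := hcon x hx
        rcases ARITH.sq_eq_one_aux this with h | h <;> simp [h]
    have h3 : Fintype.card K ≤ ({0, 1, -1} : Finset K).card := by
      rw [← Finset.card_univ]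
      exact Finset.card_le_card (fun x _ => h1 x)
    have h4 : ({0, 1, -1} : Finset K).card ≤ 3 := Finset.card_le_three
    omega
  exact Matrix.SL2.commutator_eq_top ha0 ha1

end Cfsg.Agent.Lib.Helper6.StSL
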