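import Cfsg.Agent.Lib.Helper6.StSL.Defs

/-! StSL farm (helper6), piece B0: commutators in central extensions. -/

set_option autoImplicit false

namespace Cfsg.Agent.Lib.Helper6.StSL

open Matrix
open scoped commutatorElement

variable {Γ : Type*} [Group Γ]

namespace B0

theorem comm_mul_central_left {z : Γ} (hz : z ∈ Subgroup.center Γ) (a b : Γ) :
    ⁅a * z, b⁆ = ⁅a, b⁆ := by
  have hz' := Subgroup.mem_center_iff.1 hz
  rw [commutatorElement_def, commutatorElement_def]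
  calc a * z * b * (a * z)⁻¹ * b⁻¹ = a * (z * b * z⁻¹) * a⁻¹ * b⁻¹ := by group
    _ = a * b * a⁻¹ * b⁻¹ := by rw [← hz' b, mul_inv_cancel_right]

theorem comm_mul_central_right {z : Γ} (hz : z ∈ Subgroup.center Γ) (a b : Γ) :
    ⁅a, b * z⁆ = ⁅a, b⁆ := by
  have hz' := Subgroup.mem_center_iff.1 hz
  rw [commutatorElement_def, commutatorElement_def]
  calc a * (b * z) * a⁻¹ * (b * z)⁻¹ = a * b * (z * a⁻¹ * z⁻¹) * b⁻¹ := by group
    _ = a * b * a⁻¹ * b⁻¹ := by rw [← hz' a⁻¹, mul_inv_cancel_right]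

end B0

section B0
variable {G : Type*} [Group G]

theorem comm_lift_eq {σ : Γ →* G} (hc : σ.ker ≤ Subgroup.center Γ) {a a' b b' : Γ} (ha : σ a = σ a')
    (hb : σ b = σ b') : ⁅a, b⁆ = ⁅a', b'⁆ := by
  have h1 : a⁻¹ * a' ∈ Subgroup.center Γ := hc (by
    rw [MonoidHom.mem_ker, map_mul, map_inv, ha, inv_mul_cancel])
  have h2 : b⁻¹ * b' ∈ Subgroup.center Γ := hc (by
    rw [MonoidHom.mem_ker, map_mul, map_inv, hb, inv_mul_cancel])
  have e1 : a' = a * (a⁻¹ * a') := by group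
  have e2 : b' = b * (b⁻¹ * b') := by group
  rw [e1, e2, B0.comm_mul_central_left h1, B0.comm_mul_central_right h2]

theorem comm_trick {σ : Γ →* G} (hc : σ.ker ≤ Subgroup.center Γ) {y u v : Γ}
    (h1 : σ y * σ u = σ u * σ y) (h2 : σ y * σ v = σ v * σ y) : y * ⁅u, v⁆ = ⁅u, v⁆ * y := by
  have e : y * ⁅u, v⁆ * y⁻¹ = ⁅y * u * y⁻¹, y * v * y⁻¹⁆ := by
    simp only [commutatorElement_def]
    group
  have e2 : ⁅y * u * y⁻¹, y * v * y⁻¹⁆ = ⁅u, v⁆ :=
    comm_lift_eq hc (by rw [map_mul, map_mul, map_inv, h1, mul_inv_cancel_right])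
      (by rw [map_mul, map_mul, map_inv, h2, mul_inv_cancel_right])
  rw [e2] at e
  exact mul_inv_eq_iff_eq_mul.1 e

end B0

end Cfsg.Agent.Lib.Helper6.StSL
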