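import Cfsg.Agent.Lib.Helper6.StSL.Defs

/-! # StSL, piece STD: the Steinberg relations in `SL_n` -/

set_option autoImplicit false

namespace Cfsg.Agent.Lib.Helper6.StSL

open Matrix

variable {n : ℕ} {K : Type*} [Field K]

theorem tv_add {i j : Fin n} (h : i ≠ j) (t u : K) : (tv i j t : SLn n K) * tv i j u = tv i j (t + u) := by
  apply Subtype.ext
  rw [Matrix.SpecialLinearGroup.coe_mul, tv_coe h, tv_coe h, tv_coe h,
    Matrix.transvection_mul_transvection_same _ _ h]

theorem tv_comm {i j k l : Fin n} (hij : i ≠ j) (hkl : k ≠ l) (hjk : j ≠ k) (hil : i ≠ l) (t u : K) :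
    (tv i j t : SLn n K) * tv k l u = tv k l u * tv i j t := by
  apply Subtype.ext
  rw [Matrix.SpecialLinearGroup.coe_mul, Matrix.SpecialLinearGroup.coe_mul, tv_coe hij, tv_coe hkl]
  simp only [Matrix.transvection, Matrix.add_mul, Matrix.mul_add, Matrix.one_mul, Matrix.mul_one,
    Matrix.single_mul_single_of_ne _ _ _ _ hjk, Matrix.single_mul_single_of_ne _ _ _ _ hil.symm]
  abel

theorem tv_inv {i j : Fin n} (h : i ≠ j) (t : K) : (tv i j t : SLn n K)⁻¹ = tv i j (-t) := by
  rw [inv_eq_iff_mul_eq_one, tv_add h, add_neg_cancel]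
  apply Subtype.ext
  rw [tv_coe h, Matrix.transvection_zero, Matrix.SpecialLinearGroup.coe_one]

theorem tv_mulc {i j l : Fin n} (hij : i ≠ j) (hjl : j ≠ l) (hil : i ≠ l) (t u : K) :
    (tv i j t : SLn n K) * tv j l u * (tv i j t)⁻¹ * (tv j l u)⁻¹ = tv i l (t * u) := by
  rw [mul_inv_eq_iff_eq_mul, mul_inv_eq_iff_eq_mul]
  apply Subtype.ext
  simp only [Matrix.SpecialLinearGroup.coe_mul, tv_coe hij, tv_coe hjl, tv_coe hil]
  simp only [Matrix.transvection, Matrix.add_mul, Matrix.mul_add, Matrix.one_mul, Matrix.mul_one,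
    Matrix.single_mul_single_same, Matrix.single_mul_single_of_ne _ _ _ _ hil.symm,
    Matrix.single_mul_single_of_ne _ _ _ _ hjl.symm, add_zero]
  abel

theorem tv_injective {i j : Fin n} (h : i ≠ j) : Function.Injective (fun t : K => (tv i j t : SLn n K)) := by
  intro t u htu
  have h1 := congrArg (fun M : SLn n K => (M : Matrix (Fin n) (Fin n) K) i j) htu
  simp only [tv_coe h, Matrix.transvection, Matrix.add_apply, Matrix.one_apply_ne h,
    Matrix.single_apply_same, zero_add] at h1
  exact h1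

theorem dg_conj (d : Fin n → Kˣ) (hd : ∏ i, d i = 1) {i j : Fin n} (h : i ≠ j) (t : K) :
    dg d hd * tv i j t * (dg d hd)⁻¹ = tv i j ((d i : K) * t * (((d j)⁻¹ : Kˣ) : K)) := by
  rw [mul_inv_eq_iff_eq_mul]
  apply Subtype.ext
  simp only [Matrix.SpecialLinearGroup.coe_mul, tv_coe h, dg_coe]
  ext a b
  simp only [Matrix.transvection, Matrix.add_apply, Matrix.diagonal_mul, Matrix.mul_diagonal,
    Matrix.single_apply, Matrix.one_apply]
  by_cases h1 : i = a ∧ j = b
  · obtain ⟨rfl, rfl⟩ := h1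
    simp only [and_self, if_true, if_neg h, zero_add]
    rw [mul_assoc, mul_assoc, ← Units.val_mul, inv_mul_cancel, Units.val_one, mul_one]
  · simp only [if_neg h1, add_zero]
    by_cases h2 : a = b
    · subst h2
      simp only [if_true, mul_one, one_mul]
    · simp only [if_neg h2, mul_zero, zero_mul]

/-- the standard Steinberg system of `SL_n` -/
def stdSys (n : ℕ) (K : Type*) [Field K] : StSys n K (SLn n K) where
  x := tv
  add := fun _ _ h t u => tv_add h t u
  comm := fun _ _ _ _ hij hkl hjk hil t u => tv_comm hij hkl hjk hil t u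
  mulc := fun _ _ _ hij hjl hil t u => tv_mulc hij hjl hil t u

end Cfsg.Agent.Lib.Helper6.StSL
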