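import Cfsg.Agent.Lib.Helper6.StSL.B0
import Cfsg.Agent.Lib.Helper6.StSL.STD

/-! StSL farm (helper6), piece B1 (helper10): lifts of commuting elementary matrices commute
as soon as there is a spare index. -/

set_option autoImplicit false

namespace Cfsg.Agent.Lib.Helper6.StSL

open Matrix
open scoped commutatorElement

variable {n : ℕ} {K : Type*} [Field K] {Γ : Type*} [Group Γ]

namespace B1

/-- the core: a spare index `h` outside `{i, j, k, l}` -/
theorem commL_spare {σ : Γ →* SLn n K} (hs : Function.Surjective σ)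
    (hc : σ.ker ≤ Subgroup.center Γ) {i j k l h : Fin n} (hij : i ≠ j) (hkl : k ≠ l) (hjk : j ≠ k)
    (hil : i ≠ l) (hhi : h ≠ i) (hhj : h ≠ j) (hhk : h ≠ k) (hhl : h ≠ l) (t u : K) (a b : Γ)
    (ha : σ a = tv i j t) (hb : σ b = tv k l u) : a * b = b * a := by
  obtain ⟨u', hu'⟩ := hs (tv k h u)
  obtain ⟨v', hv'⟩ := hs (tv h l 1)
  have h1 : σ a * σ u' = σ u' * σ a := by
    rw [ha, hu']; exact tv_comm hij hhk.symm hjk hhi.symm t u
  have h2 : σ a * σ v' = σ v' * σ a := by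
    rw [ha, hv']; exact tv_comm hij hhl hhj.symm hil t 1
  have h3 : a * ⁅u', v'⁆ = ⁅u', v'⁆ * a := comm_trick hc h1 h2
  have h4 : σ ⁅u', v'⁆ = σ b := by
    rw [commutatorElement_def, map_mul, map_mul, map_mul, map_inv, map_inv, hu', hv', hb,
      tv_mulc hhk.symm hhl hkl u 1, mul_one]
  have h5 : b⁻¹ * ⁅u', v'⁆ ∈ Subgroup.center Γ := by
    apply hc
    rw [MonoidHom.mem_ker, map_mul, map_inv, h4, inv_mul_cancel]
  have h6 := Subgroup.mem_center_iff.1 h5 a
  -- `a * (b⁻¹ c) = (b⁻¹ c) * a` and `a c = c a`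
  have h7 : a * b⁻¹ = b⁻¹ * a := by
    have : a * b⁻¹ * ⁅u', v'⁆ = b⁻¹ * a * ⁅u', v'⁆ := by
      calc a * b⁻¹ * ⁅u', v'⁆ = a * (b⁻¹ * ⁅u', v'⁆) := by rw [mul_assoc]
        _ = b⁻¹ * ⁅u', v'⁆ * a := h6
        _ = b⁻¹ * (⁅u', v'⁆ * a) := by rw [mul_assoc]
        _ = b⁻¹ * (a * ⁅u', v'⁆) := by rw [h3]
        _ = b⁻¹ * a * ⁅u', v'⁆ := by rw [mul_assoc]
    exact mul_right_cancel this
  calc a * b = b * (b⁻¹ * a) * b := by group
    _ = b * (a * b⁻¹) * b := by rw [h7]
    _ = b * a := by group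

theorem exists_spare (s : Finset (Fin n)) (h : s.card < n) : ∃ x : Fin n, x ∉ s := by
  by_contra hcon
  push Not at hcon
  have : s = Finset.univ := Finset.eq_univ_iff_forall.2 hcon
  rw [this, Finset.card_univ, Fintype.card_fin] at h
  exact lt_irrefl _ h

end B1

theorem commL_same (hn : 3 ≤ n) {σ : Γ →* SLn n K} (hs : Function.Surjective σ)
    (hc : σ.ker ≤ Subgroup.center Γ) {i j : Fin n} (hij : i ≠ j) (t u : K) (a b : Γ)
    (ha : σ a = tv i j t) (hb : σ b = tv i j u) : a * b = b * a := by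
  obtain ⟨h, hh⟩ := B1.exists_spare ({i, j} : Finset (Fin n))
    (lt_of_le_of_lt Finset.card_le_two (by omega))
  simp only [Finset.mem_insert, Finset.mem_singleton, not_or] at hh
  exact B1.commL_spare hs hc hij hij hij.symm hij hh.1 hh.2 hh.1 hh.2 t u a b ha hb

theorem commL_share (hn : 4 ≤ n) {σ : Γ →* SLn n K} (hs : Function.Surjective σ)
    (hc : σ.ker ≤ Subgroup.center Γ) {i j k l : Fin n} (hij : i ≠ j) (hkl : k ≠ l) (hjk : j ≠ k)
    (hil : i ≠ l) (hsh : i = k ∨ j = l) (t u : K) (a b : Γ)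
    (ha : σ a = tv i j t) (hb : σ b = tv k l u) : a * b = b * a := by
  rcases hsh with rfl | rfl
  · obtain ⟨h, hh⟩ := B1.exists_spare ({i, j, l} : Finset (Fin n))
      (lt_of_le_of_lt Finset.card_le_three (by omega))
    simp only [Finset.mem_insert, Finset.mem_singleton, not_or] at hh
    exact B1.commL_spare hs hc hij hkl hjk hil hh.1 hh.2.1 hh.1 hh.2.2 t u a b ha hb
  · obtain ⟨h, hh⟩ := B1.exists_spare ({i, j, k} : Finset (Fin n))
      (lt_of_le_of_lt Finset.card_le_three (by omega))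
    simp only [Finset.mem_insert, Finset.mem_singleton, not_or] at hh
    exact B1.commL_spare hs hc hij hkl hjk hil hh.1 hh.2.1 hh.2.2 hh.2.1 t u a b ha hb

theorem commL_five (hn : 5 ≤ n) {σ : Γ →* SLn n K} (hs : Function.Surjective σ)
    (hc : σ.ker ≤ Subgroup.center Γ) : CommL σ := by
  intro i j k l hij hkl hjk hil t u a b ha hb
  obtain ⟨h, hh⟩ := B1.exists_spare ({i, j, k, l} : Finset (Fin n))
    (lt_of_le_of_lt Finset.card_le_four (by omega))
  simp only [Finset.mem_insert, Finset.mem_singleton, not_or] at hh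
  exact B1.commL_spare hs hc hij hkl hjk hil hh.1 hh.2.1 hh.2.2.1 hh.2.2.2 t u a b ha hb

end Cfsg.Agent.Lib.Helper6.StSL
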