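import Cfsg.Agent.Lib.Helper6.StSL.B1

/-! StSL farm (helper6), piece B3 (helper52): `n = 4`, odd characteristic. -/

set_option autoImplicit false
set_option linter.unusedSimpArgs false
set_option linter.unusedVariables false

namespace Cfsg.Agent.Lib.Helper6.StSL

open Matrix
open scoped commutatorElement

variable {n : ℕ} {K : Type*} [Field K] {Γ : Type*} [Group Γ]

namespace B3

theorem ruleA {G : Type*} [Group G] (a b c : G) (hab : a * b = b * a)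
    (he : ⁅a, c⁆ * ⁅b, c⁆ = ⁅b, c⁆ * ⁅a, c⁆) : ⁅a, ⁅b, c⁆⁆ = ⁅b, ⁅a, c⁆⁆ := by
  have h1 : a * ⁅b, c⁆ * a⁻¹ = ⁅a * b * a⁻¹, a * c * a⁻¹⁆ := by
    simp only [commutatorElement_def]; group
  have h2 : a * b * a⁻¹ = b := by rw [hab]; group
  have h3 : a * c * a⁻¹ = ⁅a, c⁆ * c := by simp only [commutatorElement_def]; group
  have h4 : ⁅b, ⁅a, c⁆ * c⁆ = ⁅b, ⁅a, c⁆⁆ * (⁅a, c⁆ * ⁅b, c⁆ * ⁅a, c⁆⁻¹) := by
    generalize ⁅a, c⁆ = e
    simp only [commutatorElement_def]; group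
  have h5 : ⁅a, c⁆ * ⁅b, c⁆ * ⁅a, c⁆⁻¹ = ⁅b, c⁆ := by rw [he]; group
  calc ⁅a, ⁅b, c⁆⁆ = a * ⁅b, c⁆ * a⁻¹ * ⁅b, c⁆⁻¹ := rfl
    _ = ⁅b, ⁅a, c⁆⁆ := by rw [h1, h2, h3, h4, h5]; group

theorem ruleB {G : Type*} [Group G] (a b c : G) (hac : a * c = c * a)
    (he : ⁅a, b⁆ * ⁅b, c⁆ = ⁅b, c⁆ * ⁅a, b⁆)
    (hz : ⁅⁅a, b⁆, c⁆ * ⁅b, c⁆ = ⁅b, c⁆ * ⁅⁅a, b⁆, c⁆) : ⁅a, ⁅b, c⁆⁆ = ⁅⁅a, b⁆, c⁆ := by
  have h1 : a * ⁅b, c⁆ * a⁻¹ = ⁅a * b * a⁻¹, a * c * a⁻¹⁆ := by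
    simp only [commutatorElement_def]; group
  have h2 : a * c * a⁻¹ = c := by rw [hac]; group
  have h3 : a * b * a⁻¹ = ⁅a, b⁆ * b := by simp only [commutatorElement_def]; group
  have h4 : ⁅⁅a, b⁆ * b, c⁆ = (⁅a, b⁆ * ⁅b, c⁆ * ⁅a, b⁆⁻¹) * ⁅⁅a, b⁆, c⁆ := by
    generalize ⁅a, b⁆ = e
    simp only [commutatorElement_def]; group
  have h5 : ⁅a, b⁆ * ⁅b, c⁆ * ⁅a, b⁆⁻¹ = ⁅b, c⁆ := by rw [he]; group
  calc ⁅a, ⁅b, c⁆⁆ = a * ⁅b, c⁆ * a⁻¹ * ⁅b, c⁆⁻¹ := rfl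
    _ = ⁅b, c⁆ * ⁅⁅a, b⁆, c⁆ * ⁅b, c⁆⁻¹ := by rw [h1, h2, h3, h4, h5]
    _ = ⁅⁅a, b⁆, c⁆ := by rw [← hz]; group

theorem tv_zero {i j : Fin n} (h : i ≠ j) : (tv i j (0 : K) : SLn n K) = 1 := by
  have := tv_add h (0 : K) 0
  rw [add_zero] at this
  exact mul_eq_left.1 this

theorem tv_inv {i j : Fin n} (h : i ≠ j) (t : K) : (tv i j t : SLn n K)⁻¹ = tv i j (-t) := by
  rw [inv_eq_iff_mul_eq_one, tv_add h, add_neg_cancel, tv_zero h]

theorem map_comm {i j l : Fin n} (hij : i ≠ j) (hjl : j ≠ l) (hil : i ≠ l) {σ : Γ →* SLn n K}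
    {a c : Γ} {t u : K} (ha : σ a = tv i j t) (hc : σ c = tv j l u) :
    σ ⁅a, c⁆ = tv i l (t * u) := by
  rw [commutatorElement_def, map_mul, map_mul, map_mul, map_inv, map_inv, ha, hc,
    tv_mulc hij hjl hil]

theorem map_comm' {i j l : Fin n} (hij : i ≠ j) (hjl : j ≠ l) (hil : i ≠ l) {σ : Γ →* SLn n K}
    {a c : Γ} {t u : K} (ha : σ a = tv i j t) (hc : σ c = tv j l u) :
    σ ⁅c, a⁆ = tv i l (-(t * u)) := by
  rw [← commutatorElement_inv, map_inv, map_comm hij hjl hil ha hc, tv_inv hil]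

/-- pairwise distinct -/
structure Dist (i j k l : Fin 4) : Prop where
  ij : i ≠ j
  ik : i ≠ k
  il : i ≠ l
  jk : j ≠ k
  jl : j ≠ l
  kl : k ≠ l

variable {σ : Γ →* SLn 4 K}

/-- the commutator of lifts -/
noncomputable def f (hs : Function.Surjective σ) (i j k l : Fin 4) (s u : K) : Γ :=
  ⁅Function.surjInv hs (tv i j s), Function.surjInv hs (tv k l u)⁆

theorem f_eq (hs : Function.Surjective σ) (hc : σ.ker ≤ Subgroup.center Γ) {i j k l : Fin 4}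
    {s u : K} {a b : Γ} (ha : σ a = tv i j s) (hb : σ b = tv k l u) :
    ⁅a, b⁆ = f hs i j k l s u :=
  comm_lift_eq hc (by rw [ha, Function.surjInv_eq hs]) (by rw [hb, Function.surjInv_eq hs])

theorem f_central (hs : Function.Surjective σ) (hc : σ.ker ≤ Subgroup.center Γ) {i j k l : Fin 4}
    (d : Dist i j k l) (s u : K) (g : Γ) : f hs i j k l s u * g = g * f hs i j k l s u := by
  have h1 : f hs i j k l s u ∈ σ.ker := by
    rw [MonoidHom.mem_ker, f, commutatorElement_def, map_mul, map_mul, map_mul, map_inv, map_inv,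
      Function.surjInv_eq hs, Function.surjInv_eq hs, tv_comm d.ij d.kl d.jk d.il]
    group
  exact (Subgroup.mem_center_iff.1 (hc h1) g).symm

theorem f_add (hs : Function.Surjective σ) (hc : σ.ker ≤ Subgroup.center Γ) {i j k l : Fin 4}
    (d : Dist i j k l) (s s' u : K) :
    f hs i j k l (s + s') u = f hs i j k l s u * f hs i j k l s' u := by
  obtain ⟨a, ha⟩ := hs (tv i j s)
  obtain ⟨a', ha'⟩ := hs (tv i j s')
  obtain ⟨b, hb⟩ := hs (tv k l u)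
  have h1 : σ (a * a') = tv i j (s + s') := by rw [map_mul, ha, ha', tv_add d.ij]
  rw [← f_eq hs hc h1 hb]
  have h2 : ⁅a * a', b⁆ = a * ⁅a', b⁆ * a⁻¹ * ⁅a, b⁆ := by
    simp only [commutatorElement_def]; group
  rw [h2, f_eq hs hc ha hb, f_eq hs hc ha' hb, ← f_central hs hc d s' u a]
  rw [f_central hs hc d s u]
  group

theorem fA (hs : Function.Surjective σ) (hc : σ.ker ≤ Subgroup.center Γ) {i j k l : Fin 4}
    (d : Dist i j k l) (s u v : K) :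
    f hs i j k l s (u * v) = f hs k j i l u (s * v) := by
  obtain ⟨a, ha⟩ := hs (tv i j s)
  obtain ⟨b, hb⟩ := hs (tv k j u)
  obtain ⟨c, hcc⟩ := hs (tv j l v)
  have hab : a * b = b * a :=
    commL_share le_rfl hs hc d.ij d.jk.symm d.jk d.ij (Or.inr rfl) s u a b ha hb
  have he : σ ⁅a, c⁆ = tv i l (s * v) := map_comm d.ij d.jl d.il ha hcc
  have hbc : σ ⁅b, c⁆ = tv k l (u * v) := map_comm d.jk.symm d.jl d.kl hb hcc
  have hcomm : ⁅a, c⁆ * ⁅b, c⁆ = ⁅b, c⁆ * ⁅a, c⁆ :=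
    commL_share le_rfl hs hc d.il d.kl d.kl.symm d.il (Or.inr rfl) _ _ _ _ he hbc
  rw [← f_eq hs hc ha hbc, ← f_eq hs hc hb he]
  exact ruleA a b c hab hcomm

theorem fB (hs : Function.Surjective σ) (hc : σ.ker ≤ Subgroup.center Γ) {i j k l : Fin 4}
    (d : Dist i j k l) (s u v : K) :
    f hs i j k l s (u * v) = f hs k j i l (-(u * s)) v := by
  obtain ⟨a, ha⟩ := hs (tv i j s)
  obtain ⟨b, hb⟩ := hs (tv k i u)
  obtain ⟨c, hcc⟩ := hs (tv i l v)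
  have d' : Dist k j i l := ⟨d.jk.symm, d.ik.symm, d.kl, d.ij.symm, d.jl, d.il⟩
  have hac : a * c = c * a :=
    commL_share le_rfl hs hc d.ij d.il d.ij.symm d.il (Or.inl rfl) s v a c ha hcc
  have he : σ ⁅a, b⁆ = tv k j (-(u * s)) := map_comm' d.ik.symm d.ij d.jk.symm hb ha
  have hbc : σ ⁅b, c⁆ = tv k l (u * v) := map_comm d.ik.symm d.il d.kl hb hcc
  have hcomm : ⁅a, b⁆ * ⁅b, c⁆ = ⁅b, c⁆ * ⁅a, b⁆ :=
    commL_share le_rfl hs hc d.jk.symm d.kl d.jk d.kl (Or.inl rfl) _ _ _ _ he hbc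
  rw [← f_eq hs hc ha hbc, ← f_eq hs hc he hcc]
  refine ruleB a b c hac hcomm ?_
  rw [f_eq hs hc he hcc]
  exact f_central hs hc d' _ _ _

theorem f_one (h2 : (2 : K) ≠ 0) (hs : Function.Surjective σ) (hc : σ.ker ≤ Subgroup.center Γ)
    {i j k l : Fin 4} (d : Dist i j k l) (s u : K) : f hs i j k l s u = 1 := by
  have d' : Dist k j i l := ⟨d.jk.symm, d.ik.symm, d.kl, d.ij.symm, d.jl, d.il⟩
  -- `F = f k j i l`
  have A1 : ∀ s u, f hs i j k l s u = f hs k j i l u s := by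
    intro s u
    have := fA hs hc d s u 1
    rwa [mul_one, mul_one] at this
  have A2 : ∀ s v, f hs i j k l s v = f hs k j i l 1 (s * v) := by
    intro s v
    have := fA hs hc d s 1 v
    rwa [one_mul] at this
  have B1 : ∀ s v, f hs i j k l s v = f hs k j i l (-s) v := by
    intro s v
    have := fB hs hc d s 1 v
    rwa [one_mul, one_mul] at this
  have hsymm : ∀ s u, f hs k j i l u s = f hs k j i l s u := by
    intro s u
    rw [← A1 s u, A2, mul_comm, ← A2, A1]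
  have hneg : ∀ s v, f hs k j i l (-s) v = f hs k j i l s v := by
    intro s v
    rw [← B1, A1, hsymm]
  have hzero : ∀ v, f hs k j i l 0 v = 1 := by
    intro v
    have := f_add hs hc d' 0 0 v
    rw [add_zero] at this
    exact left_eq_mul.1 this
  have hsq : ∀ s v, f hs k j i l s v * f hs k j i l s v = 1 := by
    intro s v
    have := f_add hs hc d' s (-s) v
    rw [add_neg_cancel, hzero, hneg] at this
    exact this.symm
  have hF : ∀ s v, f hs k j i l s v = 1 := by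
    intro s v
    have h3 : s = s / 2 + s / 2 := by field_simp; ring
    rw [h3, f_add hs hc d', hsq]
  rw [A1, hF]

end B3

theorem commL_four_odd (h2 : (2 : K) ≠ 0) {σ : Γ →* SLn 4 K} (hs : Function.Surjective σ)
    (hc : σ.ker ≤ Subgroup.center Γ) : CommL σ := by
  intro i j k l hij hkl hjk hil t u a b ha hb
  by_cases hik : i = k
  · exact commL_share le_rfl hs hc hij hkl hjk hil (Or.inl hik) t u a b ha hb
  by_cases hjl : j = l
  · exact commL_share le_rfl hs hc hij hkl hjk hil (Or.inr hjl) t u a b ha hb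
  have d : B3.Dist i j k l := ⟨hij, hik, hil, hjk, hjl, hkl⟩
  rw [← commutatorElement_eq_one_iff_mul_comm, B3.f_eq hs hc ha hb, B3.f_one h2 hs hc d]

end Cfsg.Agent.Lib.Helper6.StSL
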