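import Cfsg.Agent.Lib.Helper6.StSL.Defs
import Cfsg.Agent.Lib.Helper6.StSL.STD
import Cfsg.Agent.Lib.Helper6.StSL.B0
import Cfsg.Agent.Lib.Helper6.StSL.B1

/-! StSL farm, piece B4 (helper11): the torus trick, and `CommL` for `n = 4` when some `a² ≠ 1`. -/

set_option autoImplicit false

namespace Cfsg.Agent.Lib.Helper6.StSL

open Matrix
open scoped commutatorElement

variable {n : ℕ} {K : Type*} [Field K] {Γ : Type*} [Group Γ]

namespace B4

/-- the torus trick: if a diagonal matrix acts on `x_ij` by `χ ≠ 1` and centralises `x_kl`, all lifts of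
`x_ij(t)` and `x_kl(u)` commute -/
theorem torus {σ : Γ →* SLn n K} (hs : Function.Surjective σ) (hc : σ.ker ≤ Subgroup.center Γ)
    {i j k l : Fin n} (hij : i ≠ j) (hkl : k ≠ l) (hjk : j ≠ k) (hil : i ≠ l)
    (d : Fin n → Kˣ) (hd : ∏ m, d m = 1) (h1 : d i ≠ d j) (h2 : d k = d l)
    (t u : K) (a b : Γ) (ha : σ a = tv i j t) (hb : σ b = tv k l u) : a * b = b * a := by
  set χ : K := (d i : K) * (((d j)⁻¹ : Kˣ) : K) with hχ
  have hχ1 : χ - 1 ≠ 0 := by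
    intro h
    apply h1
    have h3 : (d i : K) * (((d j)⁻¹ : Kˣ) : K) = 1 := sub_eq_zero.1 h
    have h4 : d i * (d j)⁻¹ = 1 := Units.ext (by rw [Units.val_mul, h3, Units.val_one])
    exact mul_inv_eq_one.1 h4
  obtain ⟨τ, hτ⟩ := hs (dg d hd)
  obtain ⟨a0, ha0⟩ := hs (tv i j (t / (χ - 1)))
  set s := t / (χ - 1) with hsdef
  have hz : ⁅a0, b⁆ ∈ σ.ker := by
    rw [MonoidHom.mem_ker, map_commutatorElement, ha0, hb, commutatorElement_eq_one_iff_mul_comm]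
    exact tv_comm hij hkl hjk hil _ _
  have hzc : ∀ g, g * ⁅a0, b⁆ = ⁅a0, b⁆ * g := Subgroup.mem_center_iff.1 (hc hz)
  have hσ1 : σ (τ * a0 * τ⁻¹) = tv i j (χ * s) := by
    rw [map_mul, map_mul, map_inv, hτ, ha0, dg_conj d hd hij]
    congr 1
    rw [hχ]; ring
  have hσb : σ (τ * b * τ⁻¹) = σ b := by
    rw [map_mul, map_mul, map_inv, hτ, hb, dg_conj d hd hkl, h2]
    congr 1
    rw [mul_comm ((d l : Kˣ) : K) u, mul_assoc, ← Units.val_mul, mul_inv_cancel, Units.val_one, mul_one]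
  have hc1 : ⁅τ * a0 * τ⁻¹, b⁆ = ⁅a0, b⁆ := by
    rw [comm_lift_eq hc (rfl : σ (τ * a0 * τ⁻¹) = σ (τ * a0 * τ⁻¹)) hσb.symm,
      ← conjugate_commutatorElement, hzc τ, mul_inv_cancel_right]
  set z := ⁅a0, b⁆ with hzdef
  set a1 := τ * a0 * τ⁻¹ with ha1
  have e0 : a0 * b * a0⁻¹ = z * b := by rw [hzdef, commutatorElement_def]; group
  have e1 : a1 * b * a1⁻¹ = z * b := by rw [← hc1, commutatorElement_def]; group
  have e2 : a0⁻¹ * b * a0 = z⁻¹ * b := by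
    have : b = z * (a0⁻¹ * b * a0) := by
      calc b = a0⁻¹ * (a0 * b * a0⁻¹) * a0 := by group
        _ = (a0⁻¹ * z) * b * a0 := by rw [e0]; group
        _ = z * (a0⁻¹ * b * a0) := by rw [hzc a0⁻¹]; group
    rw [eq_inv_mul_iff_mul_eq]; exact this.symm
  have hzi : ∀ g, g * z⁻¹ = z⁻¹ * g := Subgroup.mem_center_iff.1 (inv_mem (hc hz))
  have e3 : (a1 * a0⁻¹) * b * (a1 * a0⁻¹)⁻¹ = b := by
    calc (a1 * a0⁻¹) * b * (a1 * a0⁻¹)⁻¹ = a1 * (a0⁻¹ * b * a0) * a1⁻¹ := by group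
      _ = (a1 * z⁻¹) * b * a1⁻¹ := by rw [e2]; group
      _ = z⁻¹ * (a1 * b * a1⁻¹) := by rw [hzi a1]; group
      _ = b := by rw [e1]; group
  have hσa : σ a = σ (a1 * a0⁻¹) := by
    rw [map_mul, map_inv, hσ1, ha0, ha, eq_mul_inv_iff_mul_eq, tv_add hij]
    congr 1
    rw [hsdef]; field_simp; ring
  have hfin : ⁅a, b⁆ = 1 := by
    rw [comm_lift_eq hc hσa (rfl : σ b = σ b), commutatorElement_def, e3, mul_inv_cancel]
  exact commutatorElement_eq_one_iff_mul_comm.1 hfin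

end B4

theorem commL_four_sq (h : ∃ a : Kˣ, a ^ 2 ≠ 1) {σ : Γ →* SLn 4 K} (hs : Function.Surjective σ)
    (hc : σ.ker ≤ Subgroup.center Γ) : CommL σ := by
  obtain ⟨a, ha⟩ := h
  intro i j k l hij hkl hjk hil t u x y hx hy
  by_cases hsh : i = k ∨ j = l
  · exact commL_share le_rfl hs hc hij hkl hjk hil hsh t u x y hx hy
  · push Not at hsh
    obtain ⟨hik, hjl⟩ := hsh
    refine B4.torus hs hc hij hkl hjk hil (Pi.mulSingle i a * Pi.mulSingle j a⁻¹) ?_ ?_ ?_ t u x y hx hy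
    · simp only [Pi.mul_apply]
      rw [Finset.prod_mul_distrib, Finset.prod_pi_mulSingle', Finset.prod_pi_mulSingle']
      simp
    · simp only [Pi.mul_apply, Pi.mulSingle_eq_same, Pi.mulSingle_eq_of_ne hij,
        Pi.mulSingle_eq_of_ne hij.symm, mul_one, one_mul]
      intro h'
      apply ha
      rw [pow_two]
      nth_rewrite 1 [h']
      exact inv_mul_cancel a
    · simp only [Pi.mul_apply, Pi.mulSingle_eq_of_ne hik.symm, Pi.mulSingle_eq_of_ne hjk.symm,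
        Pi.mulSingle_eq_of_ne hil.symm, Pi.mulSingle_eq_of_ne hjl.symm]

end Cfsg.Agent.Lib.Helper6.StSL
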