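import Cfsg.Agent.Lib.Helper6.StSL.Defs
import Cfsg.Agent.Lib.Helper6.StSL.STD
import Cfsg.Agent.Lib.Helper6.StSL.B0
import Cfsg.Agent.Lib.Helper6.StSL.B1
import Cfsg.Agent.Lib.Helper6.StSL.B4

/-! StSL farm, piece B5 (helper11): `CommL` for `n = 3` when some `a³ ≠ 1`. -/

set_option autoImplicit false

namespace Cfsg.Agent.Lib.Helper6.StSL

open Matrix
open scoped commutatorElement

variable {n : ℕ} {K : Type*} [Field K] {Γ : Type*} [Group Γ]

namespace B5

/-- the torus element `(a at p, a at q, a⁻² at r)` -/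
def dd (p q r : Fin n) (a : Kˣ) : Fin n → Kˣ :=
  Pi.mulSingle p a * Pi.mulSingle q a * Pi.mulSingle r (a⁻¹ * a⁻¹)

theorem prod_dd (p q r : Fin n) (a : Kˣ) : ∏ m, dd p q r a m = 1 := by
  simp only [dd, Pi.mul_apply]
  rw [Finset.prod_mul_distrib, Finset.prod_mul_distrib, Finset.prod_pi_mulSingle',
    Finset.prod_pi_mulSingle', Finset.prod_pi_mulSingle']
  simp

theorem dd_p {p q r : Fin n} (hpq : p ≠ q) (hpr : p ≠ r) (a : Kˣ) : dd p q r a p = a := by
  simp only [dd, Pi.mul_apply, Pi.mulSingle_eq_same, Pi.mulSingle_eq_of_ne hpq,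
    Pi.mulSingle_eq_of_ne hpr, mul_one]

theorem dd_q {p q r : Fin n} (hpq : p ≠ q) (hqr : q ≠ r) (a : Kˣ) : dd p q r a q = a := by
  simp only [dd, Pi.mul_apply, Pi.mulSingle_eq_same, Pi.mulSingle_eq_of_ne hpq.symm,
    Pi.mulSingle_eq_of_ne hqr, mul_one, one_mul]

theorem dd_r {p q r : Fin n} (hpr : p ≠ r) (hqr : q ≠ r) (a : Kˣ) : dd p q r a r = a⁻¹ * a⁻¹ := by
  simp only [dd, Pi.mul_apply, Pi.mulSingle_eq_same, Pi.mulSingle_eq_of_ne hpr.symm,
    Pi.mulSingle_eq_of_ne hqr.symm, one_mul]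

theorem ne_of_cube {a : Kˣ} (ha : a ^ 3 ≠ 1) : a ≠ a⁻¹ * a⁻¹ := by
  intro h
  apply ha
  calc a ^ 3 = a * a * a := by rw [pow_succ, pow_two]
    _ = a * a * (a⁻¹ * a⁻¹) := by rw [← h]
    _ = 1 := by group

end B5

theorem commL_three (h : ∃ a : Kˣ, a ^ 3 ≠ 1) {σ : Γ →* SLn 3 K} (hs : Function.Surjective σ)
    (hc : σ.ker ≤ Subgroup.center Γ) : CommL σ := by
  obtain ⟨a, ha⟩ := h
  intro i j k l hij hkl hjk hil t u x y hx hy
  by_cases hik : i = k
  · subst hik
    by_cases hjl : j = l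
    · subst hjl
      exact commL_same le_rfl hs hc hij t u x y hx hy
    · -- same row
      refine B4.torus hs hc hij hkl hjk hil (B5.dd i l j a) (B5.prod_dd _ _ _ _) ?_ ?_ t u x y hx hy
      · rw [B5.dd_p hil hij, B5.dd_r hij (Ne.symm hjl)]
        exact B5.ne_of_cube ha
      · rw [B5.dd_p hil hij, B5.dd_q hil (Ne.symm hjl)]
  · by_cases hjl : j = l
    · subst hjl
      -- same column
      refine B4.torus hs hc hij hkl hjk hil (B5.dd k j i a) (B5.prod_dd _ _ _ _) ?_ ?_ t u x y hx hy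
      · rw [B5.dd_r (Ne.symm hik) (Ne.symm hij), B5.dd_q hkl (Ne.symm hij)]
        exact (B5.ne_of_cube ha).symm
      · rw [B5.dd_p hkl (Ne.symm hik), B5.dd_q hkl (Ne.symm hij)]
    · exfalso
      have h1 := Fin.val_ne_of_ne hij
      have h2 := Fin.val_ne_of_ne hkl
      have h3 := Fin.val_ne_of_ne hjk
      have h4 := Fin.val_ne_of_ne hil
      have h5 := Fin.val_ne_of_ne hik
      have h6 := Fin.val_ne_of_ne hjl
      have := i.2
      have := j.2
      have := k.2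
      have := l.2
      omega

end Cfsg.Agent.Lib.Helper6.StSL
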