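import Cfsg.Agent.Lib.Helper6.StSL.STD
import Cfsg.Agent.Lib.Helper6.StSL.B0

/-! StSL farm (helper6), piece B6: a Steinberg system in a central extension of `SL_n`, `n ≥ 4`
(Milnor, Introduction to algebraic K-theory, Theorem 5.10). -/

set_option autoImplicit false

namespace Cfsg.Agent.Lib.Helper6.StSL

open Matrix
open scoped commutatorElement

variable {n : ℕ} {K : Type*} [Field K] {Γ : Type*} [Group Γ]

namespace B6

/-- the key commutator identity -/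
theorem key_comm {G : Type*} [Group G] (u v w : G) (huw : u * w = w * u)
    (hbv : ⁅v, w⁆ * v = v * ⁅v, w⁆) (hbw : ⁅v, w⁆ * w = w * ⁅v, w⁆)
    (heu : ⁅u, ⁅v, w⁆⁆ * u = u * ⁅u, ⁅v, w⁆⁆) (hev : ⁅u, ⁅v, w⁆⁆ * v = v * ⁅u, ⁅v, w⁆⁆)
    (hew : ⁅u, ⁅v, w⁆⁆ * w = w * ⁅u, ⁅v, w⁆⁆)
    (heb : ⁅u, ⁅v, w⁆⁆ * ⁅v, w⁆ = ⁅v, w⁆ * ⁅u, ⁅v, w⁆⁆) :
    ⁅⁅u, v⁆, w⁆ = ⁅u, ⁅v, w⁆⁆ := by
  have hb : v * w = ⁅v, w⁆ * w * v := by rw [commutatorElement_def]; group
  generalize ⁅v, w⁆ = b at *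
  have he : u * b = ⁅u, b⁆ * b * u := by rw [commutatorElement_def]; group
  generalize ⁅u, b⁆ = e at *
  -- `v⁻¹ w v = b⁻¹ w`
  have s1 : v⁻¹ * w * v = b⁻¹ * w := by
    have hbv' : b⁻¹ * v = v * b⁻¹ := by
      calc b⁻¹ * v = b⁻¹ * (v * b) * b⁻¹ := by group
        _ = b⁻¹ * (b * v) * b⁻¹ := by rw [hbv]
        _ = v * b⁻¹ := by group
    calc v⁻¹ * w * v = v⁻¹ * (b⁻¹ * (b * w * v)) := by group
      _ = v⁻¹ * (b⁻¹ * (v * w)) := by rw [hb]
      _ = v⁻¹ * (b⁻¹ * v) * w := by group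
      _ = v⁻¹ * (v * b⁻¹) * w := by rw [hbv']
      _ = b⁻¹ * w := by group
  -- `u⁻¹ b⁻¹ u = b⁻¹ e`
  have s2 : u⁻¹ * b⁻¹ * u = b⁻¹ * e := by
    have h1 : u⁻¹ * b * u = e⁻¹ * b := by
      calc u⁻¹ * b * u = u⁻¹ * e⁻¹ * (e * b * u) := by group
        _ = u⁻¹ * e⁻¹ * (u * b) := by rw [he]
        _ = u⁻¹ * e⁻¹ * (u * e) * e⁻¹ * b := by group
        _ = u⁻¹ * e⁻¹ * (e * u) * e⁻¹ * b := by rw [heu]
        _ = e⁻¹ * b := by group
    calc u⁻¹ * b⁻¹ * u = (u⁻¹ * b * u)⁻¹ := by group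
      _ = (e⁻¹ * b)⁻¹ := by rw [h1]
      _ = b⁻¹ * e := by group
  have s3 : u⁻¹ * w * u = w := by
    calc u⁻¹ * w * u = u⁻¹ * (w * u) := by group
      _ = u⁻¹ * (u * w) := by rw [huw]
      _ = w := by group
  -- `v w v⁻¹ = b w`
  have s4 : v * w * v⁻¹ = b * w := by rw [hb]; group
  have s5 : v * b⁻¹ * v⁻¹ = b⁻¹ := by
    calc v * b⁻¹ * v⁻¹ = b⁻¹ * (b * v) * b⁻¹ * v⁻¹ := by group
      _ = b⁻¹ * (v * b) * b⁻¹ * v⁻¹ := by rw [hbv]
      _ = b⁻¹ := by group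
  have s6 : v * e * v⁻¹ = e := by rw [← hev]; group
  have s7 : u * e * u⁻¹ = e := by rw [← heu]; group
  have s8 : u * w * u⁻¹ = w := by rw [huw]; group
  have s9 : b⁻¹ * e * b = e := by
    calc b⁻¹ * e * b = b⁻¹ * (e * b) := by group
      _ = b⁻¹ * (b * e) := by rw [heb]
      _ = e := by group
  have main : ⁅u, v⁆ * w * ⁅u, v⁆⁻¹ = e * w := by
    rw [commutatorElement_def]
    calc u * v * u⁻¹ * v⁻¹ * w * (u * v * u⁻¹ * v⁻¹)⁻¹
        = u * v * u⁻¹ * (v⁻¹ * w * v) * u * v⁻¹ * u⁻¹ := by group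
      _ = u * v * (u⁻¹ * b⁻¹ * u) * (u⁻¹ * w * u) * v⁻¹ * u⁻¹ := by rw [s1]; group
      _ = u * v * (b⁻¹ * e) * w * v⁻¹ * u⁻¹ := by rw [s2, s3]
      _ = u * ((v * b⁻¹ * v⁻¹) * (v * e * v⁻¹) * (v * w * v⁻¹)) * u⁻¹ := by group
      _ = u * (b⁻¹ * e * (b * w)) * u⁻¹ := by rw [s5, s6, s4]
      _ = u * ((b⁻¹ * e * b) * w) * u⁻¹ := by group
      _ = u * (e * w) * u⁻¹ := by rw [s9]
      _ = (u * e * u⁻¹) * (u * w * u⁻¹) := by group
      _ = e * w := by rw [s7, s8]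
  rw [commutatorElement_def ⁅u, v⁆ w, main]
  group

theorem comm_mul_right {G : Type*} [Group G] (u b b' : G) (h : ⁅u, b'⁆ * b = b * ⁅u, b'⁆) :
    ⁅u, b * b'⁆ = ⁅u, b⁆ * ⁅u, b'⁆ := by
  have e : ⁅u, b * b'⁆ = ⁅u, b⁆ * (b * ⁅u, b'⁆) * b⁻¹ := by
    simp only [commutatorElement_def]; group
  rw [e, ← h]
  group

theorem exists_ne2 (hn : 3 ≤ n) (i j : Fin n) : ∃ h : Fin n, h ≠ i ∧ h ≠ j := by
  by_contra hcon
  push Not at hcon
  have hsub : (Finset.univ : Finset (Fin n)) ⊆ {i, j} := by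
    intro h _
    by_cases h1 : h = i
    · simp [h1]
    · simp [hcon h h1]
  have := Finset.card_le_card hsub
  have h2 : ({i, j} : Finset (Fin n)).card ≤ 2 := Finset.card_le_two
  simp only [Finset.card_univ, Fintype.card_fin] at this
  omega

theorem exists_ne3 (hn : 4 ≤ n) (i j k : Fin n) : ∃ h : Fin n, h ≠ i ∧ h ≠ j ∧ h ≠ k := by
  by_contra hcon
  push Not at hcon
  have hsub : (Finset.univ : Finset (Fin n)) ⊆ {i, j, k} := by
    intro h _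
    by_cases h1 : h = i
    · simp [h1]
    · by_cases h2 : h = j
      · simp [h2]
      · simp [hcon h h1 h2]
  have := Finset.card_le_card hsub
  have h2 : ({i, j, k} : Finset (Fin n)).card ≤ 3 := Finset.card_le_three
  simp only [Finset.card_univ, Fintype.card_fin] at this
  omega

end B6

theorem stSys_of_commL (hn : 4 ≤ n) {σ : Γ →* SLn n K} (hs : Function.Surjective σ)
    (hc : σ.ker ≤ Subgroup.center Γ) (h : CommL σ) : ∃ S : StSys n K Γ, Compat S σ := by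
  classical
  -- lifts
  choose L hL using fun (i j : Fin n) (t : K) => hs (tv i j t)
  choose pk hpk using fun (i j : Fin n) => B6.exists_ne2 (by omega : 3 ≤ n) i j
  -- images of commutators
  have hσc : ∀ {i m j : Fin n}, i ≠ m → m ≠ j → i ≠ j → ∀ (α β : K) (a b : Γ),
      σ a = tv i m α → σ b = tv m j β → σ ⁅a, b⁆ = tv i j (α * β) := by
    intro i m j him hmj hij α β a b ha hb
    rw [commutatorElement_def, map_mul, map_mul, map_mul, map_inv, map_inv, ha, hb,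
      tv_mulc him hmj hij]
  -- the key identity
  have key : ∀ {i m k j : Fin n}, i ≠ m → i ≠ k → i ≠ j → m ≠ k → m ≠ j → k ≠ j →
      ∀ α β γ : K, ⁅L i m α, L m j (β * γ)⁆ = ⁅L i k (α * β), L k j γ⁆ := by
    intro i m k j him hik hij hmk hmj hkj α β γ
    have hb : σ ⁅L m k β, L k j γ⁆ = tv m j (β * γ) := hσc hmk hkj hmj β γ _ _ (hL _ _ _) (hL _ _ _)
    have ha : σ ⁅L i m α, L m k β⁆ = tv i k (α * β) := hσc him hmk hik α β _ _ (hL _ _ _) (hL _ _ _)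
    have he : σ ⁅L i m α, ⁅L m k β, L k j γ⁆⁆ = tv i j (α * (β * γ)) :=
      hσc him hmj hij α (β * γ) _ _ (hL _ _ _) hb
    have hk := B6.key_comm (L i m α) (L m k β) (L k j γ)
      (h i m k j him hkj hmk hij _ _ _ _ (hL _ _ _) (hL _ _ _))
      (h m j m k hmj hmk hmj.symm hmk _ _ _ _ hb (hL _ _ _))
      (h m j k j hmj hkj hkj.symm hmj _ _ _ _ hb (hL _ _ _))
      (h i j i m hij him hij.symm him _ _ _ _ he (hL _ _ _))
      (h i j m k hij hmk hmj.symm hik _ _ _ _ he (hL _ _ _))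
      (h i j k j hij hkj hkj.symm hij _ _ _ _ he (hL _ _ _))
      (h i j m j hij hmj hmj.symm hij _ _ _ _ he hb)
    calc ⁅L i m α, L m j (β * γ)⁆ = ⁅L i m α, ⁅L m k β, L k j γ⁆⁆ :=
          comm_lift_eq hc rfl (by rw [hL, hb])
      _ = ⁅⁅L i m α, L m k β⁆, L k j γ⁆ := hk.symm
      _ = ⁅L i k (α * β), L k j γ⁆ := comm_lift_eq hc (by rw [hL, ha]) rfl
  -- independence of the middle index
  have indep : ∀ {i m k j : Fin n}, i ≠ m → i ≠ k → i ≠ j → m ≠ j → k ≠ j →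
      ∀ β γ : K, ⁅L i k β, L k j γ⁆ = ⁅L i m 1, L m j (β * γ)⁆ := by
    intro i m k j him hik hij hmj hkj β γ
    by_cases hmk : m = k
    · subst hmk
      obtain ⟨m', h1, h2, h3⟩ := B6.exists_ne3 hn i j m
      have e1 := key (Ne.symm h1) him hij h3 h2 hmj 1 β γ
      have e2 := key (Ne.symm h1) him hij h3 h2 hmj 1 1 (β * γ)
      rw [one_mul] at e1 e2
      rw [one_mul] at e2
      rw [← e1, e2]
    · have e1 := key him hik hij hmk hmj hkj 1 β γ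
      rw [one_mul] at e1
      exact e1.symm
  let X : Fin n → Fin n → K → Γ := fun i j t => ⁅L i (pk i j) 1, L (pk i j) j t⁆
  have hX : ∀ {i k j : Fin n}, i ≠ k → k ≠ j → i ≠ j → ∀ β γ : K,
      ⁅L i k β, L k j γ⁆ = X i j (β * γ) := by
    intro i k j hik hkj hij β γ
    exact indep (hpk i j).1.symm hik hij (hpk i j).2 hkj β γ
  have hσX : ∀ i j, i ≠ j → ∀ t, σ (X i j t) = tv i j t := by
    intro i j hij t
    have := hσc (hpk i j).1.symm (hpk i j).2 hij 1 t _ _ (hL i (pk i j) 1) (hL (pk i j) j t)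
    rwa [one_mul] at this
  refine ⟨⟨X, ?_, ?_, ?_⟩, hσX⟩
  · intro i j hij t u
    have h1 : ⁅L i (pk i j) 1, L (pk i j) j t * L (pk i j) j u⁆ = X i j t * X i j u :=
      B6.comm_mul_right _ _ _
        (h i j (pk i j) j hij (hpk i j).2 (hpk i j).2.symm hij _ _ _ _ (hσX i j hij u) (hL _ _ _))
    rw [← h1]
    exact comm_lift_eq hc rfl (by rw [map_mul, hL, hL, hL, tv_add (hpk i j).2])
  · intro i j k l hij hkl hjk hil t u
    exact h i j k l hij hkl hjk hil t u _ _ (hσX i j hij t) (hσX k l hkl u)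
  · intro i j l hij hjl hil t u
    rw [← hX hij hjl hil t u, ← commutatorElement_def]
    exact comm_lift_eq hc (by rw [hσX i j hij, hL]) (by rw [hσX j l hjl, hL])

end Cfsg.Agent.Lib.Helper6.StSL
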