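import Cfsg.Agent.Lib.Helper6.StSL.Defs
import Cfsg.Agent.Lib.Helper6.StSL.STD
import Cfsg.Agent.Lib.Helper6.StSL.B0

set_option autoImplicit false
set_option linter.unusedSectionVars false

namespace Cfsg.Agent.Lib.Helper6.StSL

open Matrix
open scoped commutatorElement

variable {K : Type*} [Field K] {Γ : Type*} [Group Γ]

namespace B7

/-- the torus element `(a, a, a⁻²)` with `a⁻²` at position `j` -/
def dv (a : Kˣ) (j : Fin 3) : Fin 3 → Kˣ := fun k => if k = j then (a ^ 2)⁻¹ else a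

theorem prod_dv (a : Kˣ) (j : Fin 3) : ∏ k, dv a j k = 1 := by
  fin_cases j <;> simp [dv, Fin.prod_univ_three] <;> group

theorem dv_self (a : Kˣ) (j : Fin 3) : dv a j j = (a ^ 2)⁻¹ := if_pos rfl

theorem dv_ne (a : Kˣ) {j k : Fin 3} (h : k ≠ j) : dv a j k = a := if_neg h

theorem dg_comm {n : ℕ} (d e : Fin n → Kˣ) (hd : ∏ k, d k = 1) (he : ∏ k, e k = 1) :
    dg d hd * dg e he = dg e he * dg d hd := by
  apply Subtype.ext
  show Matrix.diagonal _ * Matrix.diagonal _ = Matrix.diagonal _ * Matrix.diagonal _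
  rw [Matrix.diagonal_mul_diagonal, Matrix.diagonal_mul_diagonal]
  congr 1
  funext k
  exact mul_comm _ _

end B7

theorem stSys_three (h3 : ∃ a : Kˣ, a ^ 3 ≠ 1) {σ : Γ →* SLn 3 K} (hs : Function.Surjective σ)
    (hc : σ.ker ≤ Subgroup.center Γ) (h : CommL σ) : ∃ S : StSys 3 K Γ, Compat S σ := by
  obtain ⟨a, ha⟩ := h3
  choose L hL using hs
  have ha0 : (a : K) ≠ 0 := a.ne_zero
  set c : K := (a : K) ^ 3 - 1 with hcdef
  have hc0 : c ≠ 0 := by
    intro h0
    apply ha
    apply Units.ext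
    push_cast
    linear_combination h0
  let T : Fin 3 → Γ := fun j => L (dg (B7.dv a j) (B7.prod_dv a j))
  let X : Fin 3 → Fin 3 → K → Γ := fun i j s => ⁅T j, L (tv i j (s / c))⁆
  have hσX : ∀ i j, i ≠ j → ∀ s, σ (X i j s) = tv i j s := by
    intro i j hij s
    show σ ⁅T j, L (tv i j (s / c))⁆ = _
    rw [map_commutatorElement, hL, hL, commutatorElement_def, dg_conj _ _ hij, tv_inv hij,
      tv_add hij]
    congr 1
    rw [B7.dv_ne a hij, B7.dv_self]
    push_cast
    rw [hcdef]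
    rw [hcdef] at hc0
    field_simp
    ring
  have hE : ∀ (e : Fin 3 → Kˣ) (he : ∏ k, e k = 1) (τ : Γ), σ τ = dg e he → ∀ i j, i ≠ j → ∀ s,
      τ * X i j s * τ⁻¹ = X i j ((e i : K) * s * (((e j)⁻¹ : Kˣ) : K)) := by
    intro e he τ hτ i j hij s
    have h1 : τ * X i j s * τ⁻¹ = ⁅τ * T j * τ⁻¹, τ * L (tv i j (s / c)) * τ⁻¹⁆ := by
      show τ * ⁅T j, L (tv i j (s / c))⁆ * τ⁻¹ = _
      simp only [commutatorElement_def]
      group
    rw [h1]
    apply comm_lift_eq hc
    · rw [map_mul, map_mul, map_inv, hτ, hL, B7.dg_comm, mul_inv_cancel_right]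
    · rw [map_mul, map_mul, map_inv, hτ, hL, hL, dg_conj _ _ hij]
      congr 1
      ring
  have hadd : ∀ i j, i ≠ j → ∀ t u, X i j t * X i j u = X i j (t + u) := by
    intro i j hij t u
    have h1 : ⁅T j, L (tv i j (t / c)) * L (tv i j (u / c))⁆ = X i j t * X i j u := by
      have h2 : L (tv i j (t / c)) * X i j u = X i j u * L (tv i j (t / c)) :=
        h i j i j hij hij hij.symm hij (t / c) u _ _ (hL _) (hσX i j hij u)
      have h4 : ⁅T j, L (tv i j (t / c)) * L (tv i j (u / c))⁆ =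
          ⁅T j, L (tv i j (t / c))⁆ *
            (L (tv i j (t / c)) * ⁅T j, L (tv i j (u / c))⁆ * (L (tv i j (t / c)))⁻¹) := by
        simp only [commutatorElement_def]
        group
      rw [h4]
      show _ * (L (tv i j (t / c)) * X i j u * _) = _
      rw [h2, mul_inv_cancel_right]
    rw [← h1]
    apply comm_lift_eq hc rfl
    rw [map_mul, hL, hL, hL, tv_add hij]
    congr 1
    ring
  have hcomm : ∀ i j k l, i ≠ j → k ≠ l → j ≠ k → i ≠ l → ∀ t u,
      X i j t * X k l u = X k l u * X i j t := by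
    intro i j k l hij hkl hjk hil t u
    exact h i j k l hij hkl hjk hil t u _ _ (hσX i j hij t) (hσX k l hkl u)
  have hmulc : ∀ i j l, i ≠ j → j ≠ l → i ≠ l → ∀ t u,
      X i j t * X j l u * (X i j t)⁻¹ * (X j l u)⁻¹ = X i l (t * u) := by
    intro i j l hij hjl hil t u
    have hσc : ∀ γ, σ ⁅X i j γ, X j l u⁆ = tv i l (γ * u) := by
      intro γ
      rw [map_commutatorElement, hσX i j hij, hσX j l hjl, commutatorElement_def,
        tv_mulc hij hjl hil]
    let D : K → Γ := fun α => ⁅X i j α, X j l u⁆ * (X i l (α * u))⁻¹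
    have hDdef : ∀ α, D α = ⁅X i j α, X j l u⁆ * (X i l (α * u))⁻¹ := fun _ => rfl
    have hDc : ∀ α, D α ∈ Subgroup.center Γ := by
      intro α
      apply hc
      rw [MonoidHom.mem_ker, hDdef, map_mul, map_inv, hσc, hσX i l hil, mul_inv_cancel]
    have hDadd : ∀ α β, D (α + β) = D α * D β := by
      intro α β
      have e1 : ⁅X i j α * X i j β, X j l u⁆ =
          X i j α * ⁅X i j β, X j l u⁆ * (X i j α)⁻¹ * ⁅X i j α, X j l u⁆ := by
        simp only [commutatorElement_def]
        group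
      have e2 : X i j α * ⁅X i j β, X j l u⁆ = ⁅X i j β, X j l u⁆ * X i j α :=
        h i j i l hij hil hij.symm hil α (β * u) _ _ (hσX i j hij α) (hσc β)
      have e3 := Subgroup.mem_center_iff.mp (hDc α) ⁅X i j β, X j l u⁆
      rw [hDdef (α + β), ← hadd i j hij, e1, e2, mul_inv_cancel_right, add_mul,
        add_comm (α * u) (β * u), ← hadd i l hil, _root_.mul_inv_rev]
      calc ⁅X i j β, X j l u⁆ * ⁅X i j α, X j l u⁆ * ((X i l (α * u))⁻¹ * (X i l (β * u))⁻¹)
          = (⁅X i j β, X j l u⁆ * D α) * (X i l (β * u))⁻¹ := by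
            rw [hDdef α]; simp only [mul_assoc]
        _ = D α * D β := by
            rw [e3, hDdef β]; simp only [mul_assoc]
    have hD0 : D 0 = 1 := by
      have := hDadd 0 0
      rw [add_zero] at this
      exact (mul_eq_left.mp this.symm)
    have hDneg : ∀ α, D (-α) = (D α)⁻¹ := by
      intro α
      have := hDadd α (-α)
      rw [add_neg_cancel, hD0] at this
      exact (inv_eq_of_mul_eq_one_right this.symm).symm
    set μ : K := (((a ^ 2)⁻¹ : Kˣ) : K) * ((a⁻¹ : Kˣ) : K) with hμ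
    have hDμ : ∀ α, D (μ * α) = D α := by
      intro α
      have hτ : σ (T i) = dg (B7.dv a i) (B7.prod_dv a i) := hL _
      have e1 : T i * D α * (T i)⁻¹ = D α := by
        rw [Subgroup.mem_center_iff.mp (hDc α) (T i), mul_inv_cancel_right]
      have e2 : T i * D α * (T i)⁻¹ =
          ⁅T i * X i j α * (T i)⁻¹, T i * X j l u * (T i)⁻¹⁆ *
            (T i * X i l (α * u) * (T i)⁻¹)⁻¹ := by
        rw [hDdef α]
        simp only [commutatorElement_def]
        group
      rw [hE _ _ _ hτ i j hij, hE _ _ _ hτ j l hjl, hE _ _ _ hτ i l hil, B7.dv_self,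
        B7.dv_ne a hij.symm, B7.dv_ne a hil.symm] at e2
      have s1 : (((a ^ 2)⁻¹ : Kˣ) : K) * α * ((a⁻¹ : Kˣ) : K) = μ * α := by rw [hμ]; ring
      have s2 : (a : K) * u * ((a⁻¹ : Kˣ) : K) = u := by
        rw [mul_comm (a : K) u, mul_assoc, Units.mul_inv, mul_one]
      have s3 : (((a ^ 2)⁻¹ : Kˣ) : K) * (α * u) * ((a⁻¹ : Kˣ) : K) = μ * α * u := by
        rw [hμ]; ring
      rw [s1, s2, s3, e1] at e2
      rw [hDdef (μ * α)]
      exact e2.symm
    have hμ1 : μ - 1 ≠ 0 := by
      intro h0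
      apply ha
      apply Units.ext
      have h5 : μ * (a : K) ^ 3 = 1 := by
        rw [hμ]
        push_cast
        field_simp
      have h6 : μ = 1 := by linear_combination h0
      rw [h6, one_mul] at h5
      push_cast
      exact h5
    have hDt : D t = 1 := by
      have e1 : t = μ * (t / (μ - 1)) + -(t / (μ - 1)) := by
        field_simp
        ring
      rw [e1, hDadd, hDμ, hDneg, mul_inv_cancel]
    rw [hDdef t, mul_inv_eq_one, commutatorElement_def] at hDt
    exact hDt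
  exact ⟨⟨X, hadd, hcomm, hmulc⟩, hσX⟩

end Cfsg.Agent.Lib.Helper6.StSL
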