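import Cfsg.Agent.Lib.Helper6.StSL.Defs
import Cfsg.Prelude.Def_KGroupFacts
import Cfsg.Agent.Lib.Helper66.PSL2Mult
import Cfsg.Agent.S3958

/-! StSL piece B9: the multiplier of `PSL_n(K)` from the triviality of stem extensions of `SL_n(K)`. -/

set_option autoImplicit false

namespace Cfsg.Agent.Lib.Helper6.StSL

open Matrix

universe u

variable {n : ℕ}

theorem hasSchur_PSL {K : Type u} [Field K] [Fintype K] (hn : 2 ≤ n)
    (hperf : commutator (SLn n K) = ⊤)
    (htriv : ∀ (Γ : Type u) [Group Γ] [Finite Γ] (σ : Γ →* SLn n K),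
      Cfsg.IsStemExtension σ → σ.ker = ⊥) :
    Cfsg.HasCyclicSchurMultiplier (Matrix.ProjectiveSpecialLinearGroup (Fin n) K)
      (Nat.gcd n (Fintype.card K - 1)) := by
  haveI : Nonempty (Fin n) := ⟨⟨0, by omega⟩⟩
  haveI : NeZero n := ⟨by omega⟩
  have hM : Cfsg.HasCyclicSchurMultiplier (SLn n K) 1 :=
    Cfsg.Agent.Lib.Helper66.hasCyclicSchurMultiplier_one_iff.2 htriv
  have hZ : Nat.card (Subgroup.center (SLn n K)) = Nat.gcd n (Fintype.card K - 1) := by
    rw [Cfsg.Agent.Lib.Helper5.card_center_SL, Fintype.card_fin, Nat.gcd_comm]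
  have hpos : 0 < Nat.gcd n (Fintype.card K - 1) := Nat.gcd_pos_of_pos_left _ (by omega)
  haveI : NeZero (Nat.gcd n (Fintype.card K - 1)) := ⟨hpos.ne'⟩
  have hZ2 : Nat.card (Multiplicative (ZMod (Nat.gcd n (Fintype.card K - 1))))
      = Nat.gcd n (Fintype.card K - 1) := by
    rw [Nat.card_eq_fintype_card, Fintype.card_multiplicative, ZMod.card]
  haveI hcyc : IsCyclic (Subgroup.center (SLn n K)) := by
    have e := Matrix.SpecialLinearGroup.center_equiv_rootsOfUnity' (R := K)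
      (Classical.arbitrary (Fin n))
    exact isCyclic_of_surjective e.symm e.symm.surjective
  refine Cfsg.Agent.Lib.Helper66.hasSchurMultiplier_center_quotient hperf ?_
    (mulEquivOfCyclicCardEq (hZ.trans hZ2.symm))
  intro Δ _ _ τ hτ
  refine Cfsg.Agent.S3958.result _ ?_ hM Δ τ hτ
  refine ⟨QuotientGroup.mk'_surjective _, ?_, ?_⟩
  · rw [QuotientGroup.ker_mk']
  · rw [hperf]; exact le_top

end Cfsg.Agent.Lib.Helper6.StSL
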