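import Mathlib

/-!
# Steinberg systems in `SL_n` (definitions for S2401 and S2086)
-/

set_option autoImplicit false

namespace Cfsg.Agent.Lib.Helper6.StSL

open Matrix

/-- `SL_n(K)` -/
abbrev SLn (n : ℕ) (K : Type*) [Field K] := Matrix.SpecialLinearGroup (Fin n) K

variable {n : ℕ} {K : Type*} [Field K] {Γ : Type*} [Group Γ]

/-- the elementary matrix `1 + t E_ij` in `SL_n` (junk value `1` when `i = j`) -/
def tv (i j : Fin n) (t : K) : SLn n K :=
  if h : i = j then 1 else ⟨Matrix.transvection i j t, Matrix.det_transvection_of_ne i j h t⟩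

theorem tv_coe {i j : Fin n} (h : i ≠ j) (t : K) :
    ((tv i j t : SLn n K) : Matrix (Fin n) (Fin n) K) = Matrix.transvection i j t := by
  have : (tv i j t : SLn n K) = ⟨Matrix.transvection i j t, Matrix.det_transvection_of_ne i j h t⟩ :=
    dif_neg h
  rw [this]

/-- the diagonal matrix with entries `d` -/
def dg (d : Fin n → Kˣ) (h : ∏ i, d i = 1) : SLn n K :=
  ⟨Matrix.diagonal (fun i => (d i : K)), by
    rw [Matrix.det_diagonal, ← Units.coe_prod, h, Units.val_one]⟩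

theorem dg_coe (d : Fin n → Kˣ) (h : ∏ i, d i = 1) :
    ((dg d h : SLn n K) : Matrix (Fin n) (Fin n) K) = Matrix.diagonal (fun i => (d i : K)) := rfl

/-- a Steinberg system: elements `x i j t` (`i ≠ j`) of a group satisfying the Steinberg relations
(the values `x i i t` are junk) -/
structure StSys (n : ℕ) (K : Type*) [Field K] (Γ : Type*) [Group Γ] where
  x : Fin n → Fin n → K → Γ
  add : ∀ i j, i ≠ j → ∀ t u, x i j t * x i j u = x i j (t + u)
  comm : ∀ i j k l, i ≠ j → k ≠ l → j ≠ k → i ≠ l → ∀ t u, x i j t * x k l u = x k l u * x i j t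
  mulc : ∀ i j l, i ≠ j → j ≠ l → i ≠ l → ∀ t u,
    x i j t * x j l u * (x i j t)⁻¹ * (x j l u)⁻¹ = x i l (t * u)

namespace StSys

variable (S : StSys n K Γ)

/-- `w_ij(u) = x_ij(u) x_ji(-u⁻¹) x_ij(u)` -/
def w (i j : Fin n) (u : Kˣ) : Γ := S.x i j (u : K) * S.x j i (-((u⁻¹ : Kˣ) : K)) * S.x i j (u : K)

/-- `h_ij(u) = w_ij(u) w_ij(-1)` -/
def h (i j : Fin n) (u : Kˣ) : Γ := S.w i j u * S.w i j (-1)

/-- the generators -/
def gens : Set Γ := {g | ∃ (i j : Fin n) (t : K), i ≠ j ∧ g = S.x i j t}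

/-- the subgroup generated by the `x_ij(t)` with `i + k ≤ j` -/
def Uk (k : ℕ) : Subgroup Γ :=
  Subgroup.closure {g | ∃ (i j : Fin n) (t : K), i.val + k ≤ j.val ∧ g = S.x i j t}

/-- the upper unitriangular subgroup -/
def Ut : Subgroup Γ := S.Uk 1

/-- the subgroup generated by the `w_ij(u)` -/
def Wt : Subgroup Γ := Subgroup.closure {g | ∃ (i j : Fin n) (u : Kˣ), i ≠ j ∧ g = S.w i j u}

/-- the subgroup generated by the `h_ij(u)` -/
def Ht : Subgroup Γ := Subgroup.closure {g | ∃ (i j : Fin n) (u : Kˣ), i ≠ j ∧ g = S.h i j u}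

/-- `g` acts on the root elements like the monomial matrix `e_k ↦ v_k e_{π k}` -/
def Mon (g : Γ) (π : Equiv.Perm (Fin n)) (v : Fin n → Kˣ) : Prop :=
  ∀ k l, k ≠ l → ∀ t : K, g * S.x k l t * g⁻¹ = S.x (π k) (π l) ((v k : K) * t * (((v l)⁻¹ : Kˣ) : K))

end StSys

/-- `φ` maps `x_ij(t)` to the elementary matrix -/
def Compat (S : StSys n K Γ) (φ : Γ →* SLn n K) : Prop := ∀ i j, i ≠ j → ∀ t, φ (S.x i j t) = tv i j t

/-- `M` is the monomial matrix `e_k ↦ v_k e_{π k}` -/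
def IsMonMat (M : SLn n K) (π : Equiv.Perm (Fin n)) (v : Fin n → Kˣ) : Prop :=
  ∀ a k, (M : Matrix (Fin n) (Fin n) K) a k = if a = π k then (v k : K) else 0

/-- the coefficients of `w_ij(u)`: `e_j ↦ u e_i`, `e_i ↦ -u⁻¹ e_j` -/
def wv (i j : Fin n) (u : Kˣ) : Fin n → Kˣ := fun k => if k = j then u else if k = i then -u⁻¹ else 1

/-- the coefficients of `h_ij(u)`: `e_i ↦ u e_i`, `e_j ↦ u⁻¹ e_j` -/
def hv (i j : Fin n) (u : Kˣ) : Fin n → Kˣ := fun k => if k = i then u else if k = j then u⁻¹ else 1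

/-- all lifts of commuting elementary matrices commute -/
def CommL (σ : Γ →* SLn n K) : Prop :=
  ∀ i j k l : Fin n, i ≠ j → k ≠ l → j ≠ k → i ≠ l → ∀ (t u : K) (a b : Γ),
    σ a = tv i j t → σ b = tv k l u → a * b = b * a

end Cfsg.Agent.Lib.Helper6.StSL
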