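import Cfsg.Agent.Lib.Helper6.StSL.Defs
import Cfsg.Agent.Lib.Helper5.SLGen

/-! StSL farm (helper6), piece GEN. -/

set_option autoImplicit false

namespace Cfsg.Agent.Lib.Helper6.StSL

open Matrix

variable {n : ℕ} {K : Type*} [Field K]

theorem closure_tv :
    Subgroup.closure {g : SLn n K | ∃ (i j : Fin n) (t : K), i ≠ j ∧ g = tv i j t} = ⊤ := by
  rcases subsingleton_or_nontrivial (Fin n) with h | h
  · have : Subsingleton (SLn n K) := inferInstance
    exact Subsingleton.elim _ _
  · refine le_antisymm le_top (fun A _ =>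
      Cfsg.Agent.Lib.Helper5.SL_transvection_induction _ ?_ (fun _ _ => mul_mem) A)
    intro i j hij c
    apply Subgroup.subset_closure
    refine ⟨i, j, c, hij, ?_⟩
    apply Subtype.ext
    rw [tv_coe hij]
    rfl

end Cfsg.Agent.Lib.Helper6.StSL
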